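import Mathlib
import Cfsg.Agent.Lib.Lead.BrHalfStmt
import Cfsg.Agent.Lib.Helper76.GaloisConj
import Cfsg.Agent.Lib.CT.NormOne
import Cfsg.Agent.Lib.CT.Ops
import Cfsg.Agent.Lib.CT.Clifford
import Cfsg.Agent.Lib.CT.Wedderburn

set_option autoImplicit false

/-! S4504 part C, piece APsi: the class sum of the elements of order `p` on
`Ψ = ξ * conj ξ^σ`. -/

namespace Cfsg.Agent.Lib.Helper51.BrCAPsi

open Cfsg Cfsg.Agent.Lib.Lead
open scoped ComplexConjugate Classical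

universe u

/-- The sum of a character over a subgroup is a natural number. -/
theorem sum_subgroup_nat {L : Type u} [Group L] [Fintype L] (P : Subgroup L) {θ : L → ℂ}
    (hθ : IsCharacter L θ) :
    ∃ r : ℕ, (∑ u : L, if u ∈ P then θ u else 0) = (r : ℂ) := by
  have h1 : IsCharacter ↥P (fun k : ↥P => θ k) := Cfsg.Agent.Lib.CT.Ops.isCharacter_restrict P hθ
  obtain ⟨m, hm⟩ := Cfsg.Agent.Lib.CT.Clifford.classInner_char_nat h1
    (Cfsg.Agent.Lib.CT.Ops.isCharacter_one (G := ↥P))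
  refine ⟨Nat.card P * m, ?_⟩
  have h2 : (∑ u : L, if u ∈ P then θ u else 0) = ∑ h : ↥P, θ h := by
    rw [← Finset.sum_filter]
    exact (Finset.sum_subtype (Finset.univ.filter (· ∈ P)) (by simp) θ)
  rw [h2]
  unfold classInner at hm
  simp only [map_one, mul_one] at hm
  have hP : (Nat.card ↥P : ℂ) ≠ 0 := Nat.cast_ne_zero.mpr Nat.card_pos.ne'
  push_cast
  rw [← hm, mul_inv_cancel_left₀ hP]

theorem main (hA : BrHalf.AIrr.{u}) (hS : BrHalf.SumP.{u}) (hO : BrHalf.PerOrth) :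
    BrHalf.APsi.{u} := by
  intro L _ _ p _ c k hk g
  haveI := Cfsg.Agent.Lib.CT.Wedderburn.finite_irrCharacter L
  haveI : Fintype (IrrCharacter L) := Fintype.ofFinite _
  obtain ⟨hk1, hk2, hk3⟩ := hk
  have hξ : IsCharacter L c.ξ := Cfsg.Agent.Lib.CT.Wedderburn.isCharacter_of_irr c.hξ
  have hσ : IsCharacter L (fun h => c.ξ (h ^ k)) :=
    Cfsg.Agent.Lib.Helper76.GaloisConj.isCharacter_pow hξ k hk1
  have hσ' : IsCharacter L (fun h => c.ξ (h⁻¹ ^ k)) := Cfsg.Agent.Lib.CT.Ops.isCharacter_inv_arg hσ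
  have hΨ : IsCharacter L (c.ξ * fun h => c.ξ (h⁻¹ ^ k)) :=
    Cfsg.Agent.Lib.CT.Ops.isCharacter_mul hξ hσ'
  obtain ⟨Ψ, hΨdef⟩ : ∃ Ψ : L → ℂ, Ψ = c.ξ * fun h => c.ξ (h⁻¹ ^ k) := ⟨_, rfl⟩
  have hΨval : ∀ h : L, Ψ h = c.ξ h * conj (c.ξ (h ^ k)) := by
    intro h
    rw [hΨdef, Pi.mul_apply]
    congr 1
    exact Cfsg.Agent.Lib.CT.Wedderburn.char_apply_inv hσ h
  rw [← hΨdef] at hΨ
  obtain ⟨m, hm, hexp⟩ := Cfsg.Agent.Lib.CT.NormOne.exists_mult_sum hΨ
  have hexp' : ∀ h, Ψ h = ∑ ψ : IrrCharacter L, (m ψ : ℂ) * (ψ : L → ℂ) h := by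
    intro h
    have h1 := congrFun hexp h
    rw [Finset.sum_apply] at h1
    simpa using h1
  choose r hr using fun ψ : IrrCharacter L =>
    sum_subgroup_nat (c.P : Subgroup L) (Cfsg.Agent.Lib.CT.Wedderburn.isCharacter_of_irr ψ.2)
  have hp2 : p ≠ 2 := by have := c.hp5; omega
  have hΨP : (∑ u : L, if u ∈ (c.P : Subgroup L) then Ψ u else 0) = 0 := by
    rw [hS p c Ψ]
    refine Eq.trans ?_ (hO p hp2 c.ζ c.hζ k hk2)
    apply Finset.sum_congr rfl
    intro a _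
    rw [hΨval, c.hres a, ← pow_mul, c.hres (a * k)]
  have hsum0 : ∑ ψ : IrrCharacter L, m ψ * r ψ = 0 := by
    have h1 : (∑ u : L, if u ∈ (c.P : Subgroup L) then Ψ u else 0)
        = ∑ ψ : IrrCharacter L, (m ψ : ℂ) * (r ψ : ℂ) := by
      calc (∑ u : L, if u ∈ (c.P : Subgroup L) then Ψ u else 0)
          = ∑ u : L, ∑ ψ : IrrCharacter L,
              (m ψ : ℂ) * (if u ∈ (c.P : Subgroup L) then (ψ : L → ℂ) u else 0) := by
            apply Finset.sum_congr rfl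
            intro u _
            split_ifs with hu
            · rw [hexp' u]
            · simp
        _ = ∑ ψ : IrrCharacter L, ∑ u : L,
              (m ψ : ℂ) * (if u ∈ (c.P : Subgroup L) then (ψ : L → ℂ) u else 0) :=
            Finset.sum_comm
        _ = ∑ ψ : IrrCharacter L, (m ψ : ℂ) * (r ψ : ℂ) := by
            apply Finset.sum_congr rfl
            intro ψ _
            rw [← Finset.mul_sum, hr ψ]
    rw [hΨP] at h1
    have h2 : ((∑ ψ : IrrCharacter L, m ψ * r ψ : ℕ) : ℂ) = 0 := by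
      push_cast
      exact h1.symm
    exact_mod_cast h2
  have hmr : ∀ ψ : IrrCharacter L, m ψ * r ψ = 0 := by
    intro ψ
    exact (Finset.sum_eq_zero_iff.1 hsum0) ψ (Finset.mem_univ ψ)
  have key : ∀ ψ : IrrCharacter L,
      (m ψ : ℂ) * (∑ u : L, if orderOf u = p then (ψ : L → ℂ) (g * u) else 0)
        = -(c.n : ℂ) * ((m ψ : ℂ) * (ψ : L → ℂ) g) := by
    intro ψ
    rw [hA p c ψ.1 ψ.2 g, hr ψ]
    have h1 : (ψ : L → ℂ) 1 ≠ 0 := Cfsg.Agent.Lib.CT.Wedderburn.irr_apply_one_ne_zero ψ.2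
    have h2 : (m ψ : ℂ) * (r ψ : ℂ) = 0 := by exact_mod_cast hmr ψ
    have h3 : (ψ : L → ℂ) g / (ψ : L → ℂ) 1 * (ψ : L → ℂ) 1 = (ψ : L → ℂ) g :=
      div_mul_cancel₀ _ h1
    linear_combination ((ψ : L → ℂ) g / (ψ : L → ℂ) 1 * (c.n : ℂ)) * h2
      - (c.n : ℂ) * (m ψ : ℂ) * h3
  calc (∑ u : L, if orderOf u = p then c.ξ (g * u) * conj (c.ξ ((g * u) ^ k)) else 0)
      = ∑ u : L, ∑ ψ : IrrCharacter L,
          (m ψ : ℂ) * (if orderOf u = p then (ψ : L → ℂ) (g * u) else 0) := by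
        apply Finset.sum_congr rfl
        intro u _
        split_ifs with hu
        · rw [← hΨval, hexp' (g * u)]
        · simp
    _ = ∑ ψ : IrrCharacter L,
          (m ψ : ℂ) * ∑ u : L, (if orderOf u = p then (ψ : L → ℂ) (g * u) else 0) := by
        rw [Finset.sum_comm]
        apply Finset.sum_congr rfl
        intro ψ _
        rw [Finset.mul_sum]
    _ = ∑ ψ : IrrCharacter L, -(c.n : ℂ) * ((m ψ : ℂ) * (ψ : L → ℂ) g) := by
        apply Finset.sum_congr rfl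
        intro ψ _
        exact key ψ
    _ = -(c.n : ℂ) * (c.ξ g * conj (c.ξ (g ^ k))) := by
        rw [← Finset.mul_sum, ← hexp' g, hΨval]

end Cfsg.Agent.Lib.Helper51.BrCAPsi
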