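import Mathlib
import Cfsg.Agent.Lib.Helper93.HPB1Stmt

/-!
S5974 / B1H, piece PP: the orthogonal sum of two plus-type subspaces is of plus type.
-/

set_option autoImplicit false

namespace Cfsg.Agent.Lib.Helper51.HPB1PP

open Cfsg.Agent.Lib.Helper93.HPB1Stmt
open Cfsg.Agent.Lib.Helper94.OPStmt (P NDegP)
open Cfsg.Agent.Lib.Helper45.EPStmt (PlusP)

universe u

theorem main : PPH.{u} := by
  intro F _ _ d A B horth hAB hA hB
  obtain ⟨UA, hUA, hsA, hfA⟩ := hA
  obtain ⟨UB, hUB, hsB, hfB⟩ := hB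
  refine ⟨UA ⊔ UB, sup_le_sup hUA hUB, ?_, ?_⟩
  · intro w hw
    obtain ⟨u, hu, v, hv, rfl⟩ := Submodule.mem_sup.mp hw
    have h1 : QuadraticMap.polar (Cfsg.quadFormPlus d F) u v = 0 :=
      horth u (hUA hu) v (hUB hv)
    have h2 : Cfsg.quadFormPlus d F (u + v) =
        QuadraticMap.polar (Cfsg.quadFormPlus d F) u v + Cfsg.quadFormPlus d F u +
          Cfsg.quadFormPlus d F v := by
      unfold QuadraticMap.polar
      ring
    rw [h2, h1, hsA u hu, hsB v hv]
    ring
  · have hinf : UA ⊓ UB = ⊥ := by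
      apply le_bot_iff.mp
      rw [← hAB]
      exact inf_le_inf hUA hUB
    have h1 := Submodule.finrank_sup_add_finrank_inf_eq UA UB
    have h2 := Submodule.finrank_sup_add_finrank_inf_eq A B
    rw [hinf, finrank_bot, add_zero] at h1
    rw [hAB, finrank_bot, add_zero] at h2
    have e1 : 2 * Module.finrank F ↥(UA ⊔ UB) =
        2 * Module.finrank F ↥UA + 2 * Module.finrank F ↥UB := by
      rw [h1]; ring
    rw [e1, hfA, hfB, h2]

end Cfsg.Agent.Lib.Helper51.HPB1PP
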