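import Mathlib
import Cfsg.Agent.Lib.Helper75.DCStmt

set_option autoImplicit false

/-! S4719 piece CZ: an involution `z ∈ G` commuting with `v`, `w` has `|C_G(z)| ≤ c + 2 N`
(induction hypothesis in `C_Γ(z) / ⟨z⟩`). -/

namespace Cfsg.Agent.Lib.Helper51.DCCZ

open Cfsg Cfsg.Agent.Lib.Helper75.DCStmt

universe u

/-- the powers of an involution -/
theorem mem_zpowers_invol {H : Type u} [Group H] (t : H) (ht : t * t = 1) (x : H)
    (hx : x ∈ Subgroup.zpowers t) : x = 1 ∨ x = t := by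
  obtain ⟨k, rfl⟩ := Subgroup.mem_zpowers_iff.1 hx
  have h2 : t ^ (2 : ℤ) = 1 := by
    rw [zpow_ofNat, pow_two, ht]
  rcases Int.even_or_odd' k with ⟨m, rfl | rfl⟩
  · left
    rw [zpow_mul, h2, one_zpow]
  · right
    rw [zpow_add, zpow_mul, h2, one_zpow, one_mul, zpow_one]

/-- the image of a subgroup containing the kernel, in a quotient by a subgroup of order `2` -/
theorem card_map_mk {H : Type u} [Group H] [Finite H] (Z : Subgroup H) [Z.Normal]
    (K : Subgroup H) (hZK : Z ≤ K) :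
    Nat.card ↥(K.map (QuotientGroup.mk' Z)) * Nat.card ↥Z = Nat.card ↥K := by
  classical
  obtain ⟨f, hf⟩ : ∃ f : ↥K →* ↥(K.map (QuotientGroup.mk' Z)),
      ∀ y : ↥K, ((f y : ↥(K.map (QuotientGroup.mk' Z))) : H ⧸ Z) = QuotientGroup.mk' Z (y : H) :=
    ⟨(QuotientGroup.mk' Z).subgroupMap K, fun _ => rfl⟩
  have hsurj : Function.Surjective f := by
    rintro ⟨q, hq⟩
    obtain ⟨y, hy, rfl⟩ := Subgroup.mem_map.1 hq
    exact ⟨⟨y, hy⟩, Subtype.ext (hf _)⟩
  have h1 : Nat.card ↥K = Nat.card (↥K ⧸ f.ker) * Nat.card ↥f.ker :=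
    Subgroup.card_eq_card_quotient_mul_card_subgroup f.ker
  have h2 : Nat.card (↥K ⧸ f.ker) = Nat.card ↥(K.map (QuotientGroup.mk' Z)) :=
    Nat.card_congr (QuotientGroup.quotientKerEquivOfSurjective f hsurj).toEquiv
  have hker : ∀ y : ↥K, y ∈ f.ker ↔ (y : H) ∈ Z := by
    intro y
    rw [MonoidHom.mem_ker]
    constructor
    · intro h
      have h3 : QuotientGroup.mk' Z (y : H) = 1 := by
        rw [← hf, h]
        rfl
      exact (QuotientGroup.eq_one_iff _).1 h3
    · intro h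
      apply Subtype.ext
      rw [hf]
      exact (QuotientGroup.eq_one_iff _).2 h
  have h3 : Nat.card ↥f.ker = Nat.card ↥Z := by
    let g : ↥f.ker → ↥Z := fun y => ⟨((y : ↥K) : H), (hker _).1 y.2⟩
    have hg : Function.Bijective g := by
      constructor
      · intro y y' hyy
        have h4 := congrArg Subtype.val hyy
        exact Subtype.ext (Subtype.ext h4)
      · rintro ⟨t, ht⟩
        exact ⟨⟨⟨t, hZK ht⟩, (hker _).2 ht⟩, rfl⟩
    exact Nat.card_congr (Equiv.ofBijective g hg)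
  rw [h1, h2, h3]

theorem main (hQC : QC.{u}) : CZ.{u} := by
  intro a c N hKB Γ _ _ G v w hS hfac z hzG hz1 hzz hzv hzw
  classical
  by_cases hcase : z = v ∨ z = w ∨ z = v * w
  · exact (hS.cent z hcase).trans (Nat.le_add_right _ _)
  have hzv' : z ≠ v := fun h => hcase (Or.inl h)
  have hzw' : z ≠ w := fun h => hcase (Or.inr (Or.inl h))
  have hzvw' : z ≠ v * w := fun h => hcase (Or.inr (Or.inr h))
  haveI hGn : G.Normal := hS.normal
  -- the centralizer of `z`
  obtain ⟨C, hC⟩ : ∃ C : Subgroup Γ, C = Subgroup.centralizer ({z} : Set Γ) := ⟨_, rfl⟩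
  have hmemC : ∀ x : Γ, x ∈ C ↔ z * x = x * z := by
    intro x
    rw [hC, Subgroup.mem_centralizer_iff]
    constructor
    · intro h
      exact h z rfl
    · intro h y hy
      rw [Set.mem_singleton_iff] at hy
      rw [hy]
      exact h
  have hzC : z ∈ C := (hmemC z).2 rfl
  have hvC : v ∈ C := (hmemC v).2 hzv
  have hwC : w ∈ C := (hmemC w).2 hzw
  obtain ⟨zC, hzCdef⟩ : ∃ zC : ↥C, (zC : Γ) = z := ⟨⟨z, hzC⟩, rfl⟩
  obtain ⟨vC, hvCdef⟩ : ∃ vC : ↥C, (vC : Γ) = v := ⟨⟨v, hvC⟩, rfl⟩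
  obtain ⟨wC, hwCdef⟩ : ∃ wC : ↥C, (wC : Γ) = w := ⟨⟨w, hwC⟩, rfl⟩
  have hzCsq : zC * zC = 1 := Subtype.ext (by rw [Subgroup.coe_mul, hzCdef, hzz]; rfl)
  have hzCcent : ∀ y : ↥C, zC * y = y * zC := by
    intro y
    apply Subtype.ext
    rw [Subgroup.coe_mul, Subgroup.coe_mul, hzCdef]
    exact (hmemC y).1 y.2
  obtain ⟨Z, hZ⟩ : ∃ Z : Subgroup ↥C, Z = Subgroup.zpowers zC := ⟨_, rfl⟩
  have hZmem : ∀ y : ↥C, y ∈ Z → y = 1 ∨ y = zC := by
    intro y hy
    rw [hZ] at hy
    exact mem_zpowers_invol zC hzCsq y hy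
  have hzCZ : zC ∈ Z := by
    rw [hZ]
    exact Subgroup.mem_zpowers zC
  haveI hZn : Z.Normal := by
    constructor
    intro n hn g
    rcases hZmem n hn with rfl | rfl
    · rw [mul_one, mul_inv_cancel]
      exact Z.one_mem
    · rw [← hzCcent g, mul_inv_cancel_right]
      exact hzCZ
  have hzC1 : zC ≠ 1 := by
    intro h
    apply hz1
    rw [← hzCdef, h]
    rfl
  have hZcard : Nat.card ↥Z = 2 := by
    rw [hZ, Nat.card_zpowers]
    exact orderOf_eq_prime (by rw [pow_two]; exact hzCsq) hzC1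
  -- the subgroup `G ∩ C` of `C`
  obtain ⟨G', hG'⟩ : ∃ G' : Subgroup ↥C, G' = G.subgroupOf C := ⟨_, rfl⟩
  have hG'mem : ∀ y : ↥C, y ∈ G' ↔ (y : Γ) ∈ G := by
    intro y
    rw [hG', Subgroup.mem_subgroupOf]
  have hG'n : G'.Normal := by
    rw [hG']
    exact hGn.subgroupOf C
  have hZG' : Z ≤ G' := by
    intro y hy
    rcases hZmem y hy with rfl | rfl
    · exact G'.one_mem
    · rw [hG'mem, hzCdef]
      exact hzG
  have hG'card : Nat.card ↥G' = Nat.card ↥(G ⊓ Subgroup.centralizer ({z} : Set Γ)) := by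
    rw [← hC]
    let g : ↥G' → ↥(G ⊓ C) := fun y => ⟨((y : ↥C) : Γ), ⟨(hG'mem _).1 y.2, (y : ↥C).2⟩⟩
    have hg : Function.Bijective g := by
      constructor
      · intro y y' hyy
        have h4 := congrArg Subtype.val hyy
        exact Subtype.ext (Subtype.ext h4)
      · rintro ⟨t, htG, htC⟩
        exact ⟨⟨⟨t, htC⟩, (hG'mem _).2 htG⟩, rfl⟩
    exact Nat.card_congr (Equiv.ofBijective g hg)
  -- the quotient
  obtain ⟨π, hπ⟩ : ∃ π : ↥C →* ↥C ⧸ Z, π = QuotientGroup.mk' Z := ⟨_, rfl⟩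
  have hπsurj : Function.Surjective π := by
    rw [hπ]
    exact QuotientGroup.mk'_surjective Z
  have hπone : ∀ y : ↥C, π y = 1 ↔ y ∈ Z := by
    intro y
    rw [hπ]
    exact QuotientGroup.eq_one_iff y
  have hcardmap : Nat.card ↥(G'.map π) * 2 = Nat.card ↥G' := by
    rw [hπ, ← hZcard]
    exact card_map_mk Z G' hZG'
  have hvC1 : vC ≠ 1 := by
    intro h
    apply hS.v_ne
    rw [← hvCdef, h]
    rfl
  have hwC1 : wC ≠ 1 := by
    intro h
    apply hS.w_ne
    rw [← hwCdef, h]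
    rfl
  have hvCsq : vC * vC = 1 := Subtype.ext (by rw [Subgroup.coe_mul, hvCdef, hS.v_sq]; rfl)
  have hwCsq : wC * wC = 1 := Subtype.ext (by rw [Subgroup.coe_mul, hwCdef, hS.w_sq]; rfl)
  have hvwC : vC * wC = wC * vC :=
    Subtype.ext (by rw [Subgroup.coe_mul, Subgroup.coe_mul, hvCdef, hwCdef, hS.comm])
  have hcentC : ∀ xC : ↥C, ((xC : Γ) = v ∨ (xC : Γ) = w ∨ (xC : Γ) = v * w) →
      Nat.card ↥(G'.map π ⊓ Subgroup.centralizer ({π xC} : Set (↥C ⧸ Z))) ≤ c := by
    intro xC hx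
    have h1 := hQC ↥C Z G' xC hZG'
    rw [← hπ] at h1
    refine h1.trans (le_trans ?_ (hS.cent (xC : Γ) hx))
    have hmem : ∀ y : ↥(G' ⊓ Subgroup.centralizer ({xC} : Set ↥C)),
        (((y : ↥C)) : Γ) ∈ G ⊓ Subgroup.centralizer ({(xC : Γ)} : Set Γ) := by
      intro y
      rw [Subgroup.mem_inf]
      refine ⟨(hG'mem _).1 (Subgroup.mem_inf.1 y.2).1, ?_⟩
      rw [Subgroup.mem_centralizer_iff]
      intro t ht
      rw [Set.mem_singleton_iff] at ht
      rw [ht]
      have h2 := Subgroup.mem_centralizer_iff.1 (Subgroup.mem_inf.1 y.2).2 xC rfl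
      have h3 := congrArg Subtype.val h2
      rw [Subgroup.coe_mul, Subgroup.coe_mul] at h3
      exact h3
    let g : ↥(G' ⊓ Subgroup.centralizer ({xC} : Set ↥C)) →
        ↥(G ⊓ Subgroup.centralizer ({(xC : Γ)} : Set Γ)) := fun y =>
      ⟨(((y : ↥C)) : Γ), hmem y⟩
    have hg : Function.Injective g := by
      intro y y' hyy
      have h4 := congrArg Subtype.val hyy
      exact Subtype.ext (Subtype.ext h4)
    exact Nat.card_le_card_of_injective g hg
  have hSet : Setting (G'.map π) (π vC) (π wC) c := by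
    refine ⟨hG'n.map π hπsurj, ?_, ?_, ?_, ?_, ?_, ?_, ?_⟩
    · intro h
      rcases hZmem vC ((hπone vC).1 h) with h1 | h1
      · exact hvC1 h1
      · apply hzv'
        rw [← hzCdef, ← hvCdef, h1]
    · intro h
      rcases hZmem wC ((hπone wC).1 h) with h1 | h1
      · exact hwC1 h1
      · apply hzw'
        rw [← hzCdef, ← hwCdef, h1]
    · intro h
      have h0 : π (vC * wC) = 1 := by
        rw [map_mul, h, ← map_mul, hwCsq, map_one]
      rcases hZmem (vC * wC) ((hπone _).1 h0) with h1 | h1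
      · apply hS.vw_ne
        have h2 : vC = wC := by
          calc vC = vC * (wC * wC) := by rw [hwCsq, mul_one]
            _ = (vC * wC) * wC := by rw [mul_assoc]
            _ = wC := by rw [h1, one_mul]
        rw [← hvCdef, ← hwCdef, h2]
      · apply hzvw'
        rw [← hzCdef, ← h1, Subgroup.coe_mul, hvCdef, hwCdef]
    · rw [← map_mul, hvCsq, map_one]
    · rw [← map_mul, hwCsq, map_one]
    · rw [← map_mul, ← map_mul, hvwC]
    · intro x hx
      rcases hx with rfl | rfl | rfl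
      · exact hcentC vC (Or.inl hvCdef)
      · exact hcentC wC (Or.inr (Or.inl hwCdef))
      · rw [← map_mul]
        exact hcentC (vC * wC) (Or.inr (Or.inr (by rw [Subgroup.coe_mul, hvCdef, hwCdef])))
  have hG'pos : Nat.card ↥G' ≠ 0 := Nat.card_pos.ne'
  have hmappos : Nat.card ↥(G'.map π) ≠ 0 := Nat.card_pos.ne'
  have hdvd : Nat.card ↥G' ∣ Nat.card ↥G := by
    rw [hG'card]
    exact Subgroup.card_dvd_of_le inf_le_left
  have hfac' : (Nat.card ↥(G'.map π)).factorization 2 ≤ a := by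
    have h1 : (Nat.card ↥G').factorization 2 ≤ (Nat.card ↥G).factorization 2 :=
      (Nat.factorization_le_iff_dvd hG'pos Nat.card_pos.ne').2 hdvd 2
    have h2 : (Nat.card ↥G').factorization 2 = (Nat.card ↥(G'.map π)).factorization 2 + 1 := by
      rw [← hcardmap, Nat.factorization_mul hmappos (by norm_num)]
      simp [Nat.Prime.factorization_self Nat.prime_two]
    omega
  have hfinal := hKB (↥C ⧸ Z) (G'.map π) (π vC) (π wC) hSet hfac'
  rw [← hG'card, ← hcardmap]
  omega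

end Cfsg.Agent.Lib.Helper51.DCCZ
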