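import Mathlib
import Cfsg.Agent.Lib.Helper74.DixStmt
import Cfsg.Agent.Lib.Helper74.IndexP
import Cfsg.Agent.Lib.Helper74.DetTools
import Cfsg.Agent.Lib.Helper15.DetChar
import Cfsg.Agent.Lib.Helper80.Integrality
import Cfsg.Agent.Lib.CT.Ops

/-!
S4472, piece EXTUNIQ: an irreducible extension with determinantal order prime to `p` of an
irreducible character of a normal subgroup of `p`-power index and order prime to `p` is unique.
Also some tools shared with the piece EXTDET.
-/

set_option autoImplicit false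

namespace Cfsg.Agent.Lib.Helper51.DixEXTUNIQ

open Cfsg Cfsg.Agent.Lib.Helper74.DixStmt

universe u

/-- If the composite of a representation with a homomorphism is irreducible, so is the
representation. -/
theorem irr_of_comp_irr {G H : Type*} [Group G] [Group H] {V : Type*} [AddCommGroup V]
    [Module ℂ V] (f : H →* G) (ρ : Representation ℂ G V) (σ : Representation ℂ H V)
    (hσ : σ = ρ.comp f) (h : σ.IsIrreducible) : ρ.IsIrreducible := by
  subst hσ
  haveI := h
  refine { exists_pair_ne := ⟨⊥, ⊤, ?_⟩, eq_bot_or_eq_top := ?_ }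
  · intro hbt
    have h2 : (⊥ : Subrepresentation ρ).toSubmodule = (⊤ : Subrepresentation ρ).toSubmodule := by
      rw [hbt]
    have h3 : (⊥ : Subrepresentation (ρ.comp f)) = ⊤ :=
      Subrepresentation.toSubmodule_injective h2
    exact bot_ne_top h3
  · intro U
    obtain ⟨U', hU'⟩ : ∃ U' : Subrepresentation (ρ.comp f), U'.toSubmodule = U.toSubmodule :=
      ⟨{ toSubmodule := U.toSubmodule
         apply_mem_toSubmodule := fun x v hv => U.apply_mem_toSubmodule (f x) hv }, rfl⟩
    rcases h.eq_bot_or_eq_top U' with h1 | h1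
    · left
      apply Subrepresentation.toSubmodule_injective
      rw [← hU', h1]
      rfl
    · right
      apply Subrepresentation.toSubmodule_injective
      rw [← hU', h1]
      rfl

/-- An irreducible character whose restriction to `K` is irreducible restricts irreducibly to
every subgroup containing `K`. -/
theorem restrict_irr_mid {T : Type u} [Group T] [Finite T] (K M : Subgroup T) (hKM : K ≤ M)
    {ψ : T → ℂ} (hψ : IsIrrCharacter T ψ) (hK : IsIrrCharacter K (fun k : K => ψ k)) :
    IsIrrCharacter M (fun m : M => ψ m) := by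
  obtain ⟨n, ρ, hirr, hρ⟩ := id hψ
  obtain ⟨σ, hσ⟩ : ∃ σ : Representation ℂ M (Fin n → ℂ), σ = ρ.comp M.subtype := ⟨_, rfl⟩
  obtain ⟨τ, hτ⟩ : ∃ τ : Representation ℂ K (Fin n → ℂ), τ = σ.comp (Subgroup.inclusion hKM) :=
    ⟨_, rfl⟩
  have hτc : τ.character = fun k : K => ψ k := by
    funext k
    rw [← hρ, hτ, hσ]
    rfl
  have hτirr : τ.IsIrreducible := by
    apply Cfsg.Agent.Lib.Helper15.DetChar.isIrreducible_of_isIrrCharacter
    rw [hτc]
    exact hK
  have hσirr : σ.IsIrreducible := irr_of_comp_irr (Subgroup.inclusion hKM) σ τ hτ hτirr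
  refine ⟨n, σ, hσirr, ?_⟩
  funext m
  rw [← hρ, hσ]
  rfl

/-- A normal subgroup of index `p` above a normal subgroup of index `p ^ (m + 1)`. -/
theorem exists_normal_index_p {T : Type u} [Group T] [Finite T] (p : ℕ) [Fact p.Prime]
    (K : Subgroup T) [K.Normal] (m : ℕ) (h : K.index = p ^ (m + 1)) :
    ∃ M : Subgroup T, M.Normal ∧ K ≤ M ∧ M.index = p := by
  have hp := (Fact.out : p.Prime)
  have hcard : Nat.card (T ⧸ K) = p ^ (m + 1) := by
    rw [← Subgroup.index_eq_card]; exact h
  obtain ⟨H, hH⟩ := Sylow.exists_subgroup_card_pow_prime (G := T ⧸ K) p (n := m)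
    (by rw [hcard]; exact pow_dvd_pow p (Nat.le_succ m))
  have hHidx : H.index = p := by
    have h1 := Subgroup.card_mul_index H
    rw [hH, hcard, pow_succ] at h1
    exact Nat.eq_of_mul_eq_mul_left (pow_pos hp.pos m) h1
  have hHn : H.Normal := by
    apply Subgroup.normal_of_index_eq_minFac_card
    rw [hHidx, hcard, Nat.Prime.pow_minFac hp (Nat.succ_ne_zero m)]
  refine ⟨H.comap (QuotientGroup.mk' K), hHn.comap _, ?_, ?_⟩
  · intro x hx
    rw [Subgroup.mem_comap]
    have : (QuotientGroup.mk' K) x = 1 := (QuotientGroup.eq_one_iff x).2 hx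
    rw [this]
    exact H.one_mem
  · rw [Subgroup.index_comap_of_surjective H (QuotientGroup.mk'_surjective K)]
    exact hHidx

/-- The determinantal order of an irreducible restriction divides the determinantal order. -/
theorem detOrder_restrict_dvd {T : Type u} [Group T] [Finite T] (M : Subgroup T) {ψ : T → ℂ}
    (hψ : IsIrrCharacter T ψ) (hres : IsIrrCharacter M (fun m : M => ψ m)) :
    detOrder (fun m : M => ψ m) ∣ detOrder ψ := by
  apply Cfsg.Agent.Lib.Helper74.DetTools.detOrder_dvd_of_pow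
  intro g
  rw [Cfsg.Agent.Lib.Helper74.DetTools.detChar_restrict M hψ hres]
  exact Cfsg.Agent.Lib.Helper74.DetTools.detChar_pow_detOrder ψ (g : T)

/-- The degree of an irreducible character whose restriction to `K` is irreducible is prime
to `p` when the order of `K` is. -/
theorem not_dvd_degree {T : Type u} [Group T] [Finite T] (p : ℕ) [Fact p.Prime]
    (K : Subgroup T) (hcop : (Nat.card K).Coprime p) {ψ : T → ℂ}
    (hK : IsIrrCharacter K (fun k : K => ψ k)) : ¬ p ∣ charDegree ψ := by
  have hp := (Fact.out : p.Prime)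
  have h1 : charDegree (fun k : K => ψ k) ∣ Nat.card K :=
    Cfsg.Agent.Lib.Helper80.Integrality.charDegree_dvd_card ⟨_, hK⟩
  have h2 : charDegree (fun k : K => ψ k) = charDegree ψ := rfl
  rw [h2] at h1
  intro h3
  exact (Nat.Prime.coprime_iff_not_dvd hp).1 hcop.symm (dvd_trans h3 h1)

theorem aux (p : ℕ) [Fact p.Prime] : ∀ (m : ℕ) (T : Type u) [Group T] [Finite T]
    (K : Subgroup T) [K.Normal], (Nat.card K).Coprime p → K.index = p ^ m →
    ∀ ψ ψ' : T → ℂ, IsIrrCharacter T ψ → IsIrrCharacter T ψ' →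
    IsIrrCharacter K (fun k : K => ψ k) → (∀ k : K, ψ k = ψ' k) →
    ¬ p ∣ detOrder ψ → ¬ p ∣ detOrder ψ' → ψ = ψ' := by
  intro m
  induction m with
  | zero =>
    intro T _ _ K _ hcop hidx ψ ψ' hψ hψ' hK hres hd hd'
    have hKtop : K = ⊤ := Subgroup.index_eq_one.mp (by simpa using hidx)
    funext g
    have hg : g ∈ K := by rw [hKtop]; exact Subgroup.mem_top g
    exact hres ⟨g, hg⟩
  | succ m ih =>
    intro T _ _ K _ hcop hidx ψ ψ' hψ hψ' hK hres hd hd'
    obtain ⟨M, hMn, hKM, hMidx⟩ := exists_normal_index_p p K m hidx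
    haveI := hMn
    have hp := (Fact.out : p.Prime)
    have hψM := restrict_irr_mid K M hKM hψ hK
    have hK' : IsIrrCharacter K (fun k : K => ψ' k) := by
      have h1 : (fun k : K => ψ' k) = fun k : K => ψ k := funext (fun k => (hres k).symm)
      rw [h1]; exact hK
    have hψ'M := restrict_irr_mid K M hKM hψ' hK'
    have hcop' : (Nat.card (K.subgroupOf M)).Coprime p := by
      rw [Nat.card_congr (Subgroup.subgroupOfEquivOfLe hKM).toEquiv]; exact hcop
    have hidx' : (K.subgroupOf M).index = p ^ m := by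
      have h1 := Subgroup.relIndex_mul_index hKM
      rw [hMidx, hidx, pow_succ] at h1
      exact Nat.eq_of_mul_eq_mul_right hp.pos h1
    have hKirr : IsIrrCharacter (K.subgroupOf M)
        (fun k : K.subgroupOf M => (fun m : M => ψ m) k) :=
      Cfsg.Agent.Lib.CT.Ops.isIrrCharacter_comp_mulEquiv (Subgroup.subgroupOfEquivOfLe hKM) hK
    have hresM : ∀ k : K.subgroupOf M, (fun m : M => ψ m) k = (fun m : M => ψ' m) k := by
      intro k
      exact hres ⟨((k : M) : T), Subgroup.mem_subgroupOf.mp k.2⟩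
    have hdM : ¬ p ∣ detOrder (fun m : M => ψ m) :=
      fun h => hd (dvd_trans h (detOrder_restrict_dvd M hψ hψM))
    have hd'M : ¬ p ∣ detOrder (fun m : M => ψ' m) :=
      fun h => hd' (dvd_trans h (detOrder_restrict_dvd M hψ' hψ'M))
    have hM := ih M (K.subgroupOf M) hcop' hidx' _ _ hψM hψ'M hKirr hresM hdM hd'M
    haveI := Fintype.ofFinite T
    haveI : Fintype M := Fintype.ofFinite M
    have hdeg : ¬ p ∣ charDegree ψ := not_dvd_degree p K hcop hK
    exact Cfsg.Agent.Lib.Helper74.IndexP.eq_of_restrict_eq M hp hMidx ψ ψ' hψ hψ' hdeg hd hd'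
      (fun m => congrFun hM m)

theorem main : ExtUniq.{u} := by
  intro T _ _ p _ K _ hcop hidx ψ ψ' hψ hψ' hK hres hd hd'
  obtain ⟨m, hm⟩ := hidx
  exact aux p m T K hcop hm ψ ψ' hψ hψ' hK hres hd hd'

end Cfsg.Agent.Lib.Helper51.DixEXTUNIQ
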