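import Mathlib
import Cfsg.Agent.Lib.Helper74.DixStmt
import Cfsg.Agent.Lib.Helper74.IndexP
import Cfsg.Agent.Lib.Helper74.DetTools
import Cfsg.Agent.Lib.Helper51.DixEXTUNIQ

/-!
S4472, piece EXTDET: an invariant irreducible character of a normal subgroup of `p`-power
index and order prime to `p` has an irreducible extension with determinantal order prime to
`p`.
-/

set_option autoImplicit false

namespace Cfsg.Agent.Lib.Helper51.DixEXTDET

open Cfsg Cfsg.Agent.Lib.Helper74.DixStmt Cfsg.Agent.Lib.Helper51.DixEXTUNIQ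

universe u

/-- The determinantal order of an irreducible character divides the group order. -/
theorem detOrder_dvd_card {K : Type u} [Group K] [Finite K] {θ : K → ℂ}
    (hθ : IsIrrCharacter K θ) : detOrder θ ∣ Nat.card K := by
  obtain ⟨δ, hδ⟩ := Cfsg.Agent.Lib.Helper74.DetTools.exists_detHom hθ
  apply Cfsg.Agent.Lib.Helper74.DetTools.detOrder_dvd_of_pow
  intro g
  rw [hδ]
  show ((δ g : ℂˣ) : ℂ) ^ Nat.card K = 1
  rw [← Units.val_pow_eq_pow_val, ← map_pow, pow_card_eq_one', map_one, Units.val_one]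

theorem aux (hU : ExtUniq.{u}) (p : ℕ) [Fact p.Prime] : ∀ (m : ℕ) (T : Type u) [Group T]
    [Finite T] (K : Subgroup T) [hK : K.Normal], (Nat.card K).Coprime p → K.index = p ^ m →
    ∀ θ : K → ℂ, IsIrrCharacter K θ →
    (∀ (g : T) (k : K), θ ⟨g * k * g⁻¹, hK.conj_mem k k.2 g⟩ = θ k) →
    ∃ ψ : T → ℂ, IsIrrCharacter T ψ ∧ (∀ k : K, ψ k = θ k) ∧ ¬ p ∣ detOrder ψ := by
  intro m
  induction m with
  | zero =>
    intro T _ _ K hK hcop hidx θ hθ hinv
    have hp := (Fact.out : p.Prime)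
    have hKtop : K = ⊤ := Subgroup.index_eq_one.mp (by simpa using hidx)
    have hmem : ∀ g : T, g ∈ K := fun g => by rw [hKtop]; exact Subgroup.mem_top g
    obtain ⟨e, he⟩ : ∃ e : T ≃* K, ∀ g : T, ((e g : K) : T) = g :=
      ⟨{ toFun := fun g => ⟨g, hmem g⟩
         invFun := fun k => k.1
         left_inv := fun g => rfl
         right_inv := fun k => rfl
         map_mul' := fun a b => rfl }, fun g => rfl⟩
    refine ⟨fun g => θ (e g), Cfsg.Agent.Lib.CT.Ops.isIrrCharacter_comp_mulEquiv e hθ, ?_, ?_⟩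
    · intro k
      have h1 : e (k : T) = k := Subtype.ext (he _)
      show θ (e (k : T)) = θ k
      rw [h1]
    · rw [Cfsg.Agent.Lib.Helper74.DetTools.detOrder_comp_mulEquiv e hθ]
      intro h
      exact (Nat.Prime.coprime_iff_not_dvd hp).1 hcop.symm (dvd_trans h (detOrder_dvd_card hθ))
  | succ m ih =>
    intro T _ _ K hK hcop hidx θ hθ hinv
    have hp := (Fact.out : p.Prime)
    obtain ⟨M, hMn, hKM, hMidx⟩ := exists_normal_index_p p K m hidx
    haveI := hMn
    have hcop' : (Nat.card (K.subgroupOf M)).Coprime p := by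
      rw [Nat.card_congr (Subgroup.subgroupOfEquivOfLe hKM).toEquiv]; exact hcop
    have hidx' : (K.subgroupOf M).index = p ^ m := by
      have h1 := Subgroup.relIndex_mul_index hKM
      rw [hMidx, hidx, pow_succ] at h1
      exact Nat.eq_of_mul_eq_mul_right hp.pos h1
    obtain ⟨e, he⟩ : ∃ e : K.subgroupOf M ≃* K, ∀ x : K.subgroupOf M,
        ((e x : K) : T) = ((x : M) : T) :=
      ⟨Subgroup.subgroupOfEquivOfLe hKM, fun x => rfl⟩
    obtain ⟨θ', hθ'def⟩ : ∃ θ' : K.subgroupOf M → ℂ, θ' = fun x => θ (e x) := ⟨_, rfl⟩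
    have hθ' : IsIrrCharacter (K.subgroupOf M) θ' := by
      rw [hθ'def]
      exact Cfsg.Agent.Lib.CT.Ops.isIrrCharacter_comp_mulEquiv e hθ
    have hK'n : (K.subgroupOf M).Normal := inferInstance
    -- conjugation by an element of `T` on `K.subgroupOf M`
    have hconj : ∀ (g : T) (x : K.subgroupOf M)
        (hx : (⟨g * ((x : M) : T) * g⁻¹, hMn.conj_mem _ (x : M).2 g⟩ : M) ∈ K.subgroupOf M),
        θ' ⟨⟨g * ((x : M) : T) * g⁻¹, hMn.conj_mem _ (x : M).2 g⟩, hx⟩ = θ' x := by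
      intro g x hx
      rw [hθ'def]
      show θ (e ⟨⟨g * ((x : M) : T) * g⁻¹, hMn.conj_mem _ (x : M).2 g⟩, hx⟩) = θ (e x)
      have h1 : e ⟨⟨g * ((x : M) : T) * g⁻¹, hMn.conj_mem _ (x : M).2 g⟩, hx⟩ =
          ⟨g * ((e x : K) : T) * g⁻¹, hK.conj_mem _ (e x).2 g⟩ := by
        apply Subtype.ext
        rw [he]
        show g * ((x : M) : T) * g⁻¹ = g * ((e x : K) : T) * g⁻¹
        rw [he x]
      rw [h1]
      exact hinv g (e x)
    have hinv' : ∀ (g : M) (x : K.subgroupOf M),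
        θ' ⟨g * x * g⁻¹, hK'n.conj_mem x x.2 g⟩ = θ' x := by
      intro g x
      exact hconj (g : T) x (hK'n.conj_mem x x.2 g)
    obtain ⟨ψM, hψM, hextM, hdetM⟩ := ih M (K.subgroupOf M) hcop' hidx' θ' hθ' hinv'
    have hresM : (fun x : K.subgroupOf M => ψM x) = θ' := funext hextM
    have hKirr : IsIrrCharacter (K.subgroupOf M) (fun x : K.subgroupOf M => ψM x) := by
      rw [hresM]; exact hθ'
    -- `ψM` is `T`-invariant
    have hinvT : ∀ (g : T) (n : M), ψM ⟨g * n * g⁻¹, hMn.conj_mem (n : T) n.2 g⟩ = ψM n := by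
      intro g n
      obtain ⟨c, hc⟩ : ∃ c : M ≃* M, ∀ n : M, ((c n : M) : T) = g * n * g⁻¹ :=
        ⟨(MulAut.conjNormal g : MulAut M), fun n => MulAut.conjNormal_apply g n⟩
      have hcirr : IsIrrCharacter M (fun n : M => ψM (c n)) :=
        Cfsg.Agent.Lib.CT.Ops.isIrrCharacter_comp_mulEquiv c hψM
      have hcdet : detOrder (fun n : M => ψM (c n)) = detOrder ψM :=
        Cfsg.Agent.Lib.Helper74.DetTools.detOrder_comp_mulEquiv c hψM
      have hcK : ∀ x : K.subgroupOf M, (fun n : M => ψM (c n)) x = ψM x := by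
        intro x
        have hx : (⟨g * ((x : M) : T) * g⁻¹, hMn.conj_mem _ (x : M).2 g⟩ : M) ∈
            K.subgroupOf M := by
          rw [Subgroup.mem_subgroupOf]
          exact hK.conj_mem _ (Subgroup.mem_subgroupOf.mp x.2) g
        have h1 : c (x : M) = ((⟨⟨g * ((x : M) : T) * g⁻¹, hMn.conj_mem _ (x : M).2 g⟩, hx⟩ :
            K.subgroupOf M) : M) := Subtype.ext (hc _)
        show ψM (c (x : M)) = ψM x
        rw [h1, hextM, hextM]
        exact hconj g x hx
      have hcKirr : IsIrrCharacter (K.subgroupOf M)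
          (fun x : K.subgroupOf M => (fun n : M => ψM (c n)) x) := by
        have h2 : (fun x : K.subgroupOf M => (fun n : M => ψM (c n)) x) = θ' := by
          funext x
          rw [hcK x, hextM]
        rw [h2]; exact hθ'
      have heq := hU (T := M) p (K.subgroupOf M) hcop' ⟨m, hidx'⟩ (fun n : M => ψM (c n)) ψM
        hcirr hψM hcKirr hcK (by rw [hcdet]; exact hdetM) hdetM
      have h3 : c n = ⟨g * n * g⁻¹, hMn.conj_mem (n : T) n.2 g⟩ := Subtype.ext (hc n)
      rw [← h3]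
      exact congrFun heq n
    haveI := Fintype.ofFinite T
    haveI : Fintype M := Fintype.ofFinite M
    have hdeg : ¬ p ∣ charDegree ψM := not_dvd_degree p (K.subgroupOf M) hcop' hKirr
    obtain ⟨χ, hχ, hχM, hχdet⟩ :=
      Cfsg.Agent.Lib.Helper74.IndexP.exists_extension_coprime_det M hp hMidx ψM hψM hinvT hdeg
        hdetM
    refine ⟨χ, hχ, ?_, hχdet⟩
    intro k
    have hkM : (⟨(k : T), hKM k.2⟩ : M) ∈ K.subgroupOf M := by
      rw [Subgroup.mem_subgroupOf]; exact k.2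
    have h1 := hχM ⟨(k : T), hKM k.2⟩
    have h2 := hextM ⟨⟨(k : T), hKM k.2⟩, hkM⟩
    have h3 : e ⟨⟨(k : T), hKM k.2⟩, hkM⟩ = k := Subtype.ext (he _)
    show χ (k : T) = θ k
    rw [show χ (k : T) = ψM ⟨(k : T), hKM k.2⟩ from h1]
    rw [show ψM ⟨(k : T), hKM k.2⟩ = θ' ⟨⟨(k : T), hKM k.2⟩, hkM⟩ from h2, hθ'def]
    show θ (e ⟨⟨(k : T), hKM k.2⟩, hkM⟩) = θ k
    rw [h3]

theorem main (hU : ExtUniq.{u}) : ExtDet.{u} := by
  intro T _ _ p _ K hK hcop hidx θ hθ hinv
  obtain ⟨m, hm⟩ := hidx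
  exact aux hU p m T K hcop hm θ hθ hinv

end Cfsg.Agent.Lib.Helper51.DixEXTDET
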