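import Mathlib
import Cfsg.Agent.Lib.Helper37.EluStmt
import Cfsg.Agent.Lib.Helper40.PrimeFix
import Cfsg.Agent.Lib.Helper40.SSConj
import Cfsg.Agent.S2568

/-!
# S5958 piece CHAR: a matrix with `x ^ r = 1` is semisimple and its characteristic polynomial is
`(X - 1) ^ E` times a product of monic polynomials of degree `c`
-/

set_option autoImplicit false

namespace Cfsg.Agent.Lib.Helper51.EluCHAR

open Polynomial UniqueFactorizationMonoid

universe u

theorem main : Cfsg.Agent.Lib.Helper37.EluStmt.CharFact.{u} := by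
  intro F _ _ p _ _ r _ hrp n x hx
  classical
  have hr0 : (r : F) ≠ 0 := Cfsg.Agent.Lib.Helper40.PrimeFix.cast_ne_zero' (p := p) r hrp
  refine ⟨Cfsg.Agent.Lib.Helper40.SSConj.isSemisimple_toLin' x r hr0 hx, ?_⟩
  set c := orderOf ((Fintype.card F : ℕ) : ZMod r) with hc
  set nf := normalizedFactors x.charpoly with hnf
  have hmonic : x.charpoly.Monic := Matrix.charpoly_monic x
  have hfac := Cfsg.Agent.Lib.Helper40.PrimeFix.factors_of_pow_eq_one (p := p) r hrp x hx
  have hM : ∀ P ∈ nf.filter (fun P => P ≠ X - C 1), P.Monic ∧ P.natDegree = c := by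
    intro P hP
    rw [Multiset.mem_filter] at hP
    refine ⟨Cfsg.Agent.S2568.monic_of_mem_nf _ P hP.1, ?_⟩
    rcases hfac P hP.1 with h | h
    · exact absurd h hP.2
    · exact h
  have hprod : x.charpoly = (X - C 1) ^ (nf.count (X - C 1)) *
      (nf.filter (fun P => P ≠ X - C 1)).prod := by
    have h1 : nf = nf.filter (fun P => P = X - C 1) + nf.filter (fun P => ¬ P = X - C 1) :=
      (Multiset.filter_add_not _ _).symm
    have h2 : nf.filter (fun P => P = X - C 1) =
        Multiset.replicate (nf.count (X - C 1)) (X - C 1) := Multiset.filter_eq' nf (X - C 1)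
    have h3 : nf.prod = x.charpoly := Cfsg.Agent.S2568.prod_nf _ hmonic
    rw [← h3]
    conv_lhs => rw [h1]
    rw [Multiset.prod_add, h2, Multiset.prod_replicate]
  refine ⟨nf.count (X - C 1), nf.filter (fun P => P ≠ X - C 1), hprod, hM, ?_⟩
  have hdeg : x.charpoly.natDegree = n := by
    rw [Matrix.charpoly_natDegree_eq_dim, Fintype.card_fin]
  have hMmonic : (nf.filter (fun P => P ≠ X - C 1)).prod.Monic := by
    have h0 := Polynomial.monic_multiset_prod_of_monic (nf.filter (fun P => P ≠ X - C 1))
      (fun P => P) (fun P hP => (hM P hP).1)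
    simpa using h0
  have h4 : ((nf.filter (fun P => P ≠ X - C 1)).prod).natDegree =
      c * Multiset.card (nf.filter (fun P => P ≠ X - C 1)) := by
    rw [Polynomial.natDegree_multiset_prod_of_monic _ (fun P hP => (hM P hP).1)]
    have h5 : (nf.filter (fun P => P ≠ X - C 1)).map natDegree =
        (nf.filter (fun P => P ≠ X - C 1)).map (fun _ => c) :=
      Multiset.map_congr rfl (fun P hP => (hM P hP).2)
    rw [h5, Multiset.map_const', Multiset.sum_replicate, smul_eq_mul, mul_comm]
  rw [hprod, Polynomial.Monic.natDegree_mul ((monic_X_sub_C 1).pow _) hMmonic,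
    Polynomial.Monic.natDegree_pow (monic_X_sub_C 1), natDegree_X_sub_C, mul_one, h4] at hdeg
  exact hdeg

end Cfsg.Agent.Lib.Helper51.EluCHAR
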