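import Mathlib
import Cfsg.Agent.Lib.Helper24.ExStmt

/-!
# S5877 piece BASA: basic facts on `R ⊔ Sc`

* `sc_central`: scalars are central;
* `centralizer_scalar`: a matrix commuting with `R` is scalar;
* `mem_RZ`: decomposition of elements of `R ⊔ Sc`;
* `comm_mem`: commutators of elements of `R` lie in `R`, are scalar and of order dividing `r`;
* `main : BasA`.
-/

set_option autoImplicit false

namespace Cfsg.Agent.Lib.Helper51.ExBASA

open Cfsg Cfsg.Agent.Lib.Helper24.ExStmt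
open Matrix
open scoped commutatorElement

universe u

variable {F : Type u} [Field F] {n : ℕ}

/-- scalars are central -/
theorem sc_central {s : GLn n F} (hs : s ∈ Sc n F) (x : GLn n F) : s * x = x * s := by
  obtain ⟨c, rfl⟩ := hs
  apply Units.ext
  exact (Matrix.scalar_commute (c : F) (fun _ => Commute.all _ _)
    (x : Matrix (Fin n) (Fin n) F)).eq

/-- a matrix commuting with `R` is scalar -/
theorem centralizer_scalar [Fintype F] {r : ℕ} {R : Subgroup (GLn n F)} (S : Setup F n r R)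
    (a : GLn n F) (ha : ∀ y ∈ R, a * y = y * a) : a ∈ Sc n F := by
  obtain ⟨c, hc⟩ := S.hirr.2 (a : Matrix (Fin n) (Fin n) F) (by
    rintro s ⟨y, hy, rfl⟩
    have := congrArg Units.val (ha y hy)
    simpa using this)
  rw [Cfsg.Geo.mem_scalars_iff]
  by_cases h0 : c = 0
  · subst h0
    refine ⟨1, ?_⟩
    have h1 : (a : Matrix (Fin n) (Fin n) F) = 0 := by rw [hc]; simp
    have h2 : ((a * a⁻¹ : GLn n F) : Matrix (Fin n) (Fin n) F) = 1 := by simp
    rw [Units.val_mul, h1, zero_mul] at h2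
    rw [h1, ← h2]
    simp
  · exact ⟨Units.mk0 c h0, hc⟩

/-- decomposition of the elements of `R ⊔ Sc` -/
theorem mem_RZ {R : Subgroup (GLn n F)} {a : GLn n F} (ha : a ∈ R ⊔ Sc n F) :
    ∃ x ∈ R, ∃ s ∈ Sc n F, x * s = a :=
  Subgroup.mem_sup_of_normal_right.mp ha

/-- commutators of elements of `R` -/
theorem comm_mem [Fintype F] {r : ℕ} {R : Subgroup (GLn n F)} (S : Setup F n r R)
    {x y : GLn n F} (hx : x ∈ R) (hy : y ∈ R) :
    x * y * x⁻¹ * y⁻¹ ∈ R ∧ x * y * x⁻¹ * y⁻¹ ∈ Sc n F ∧ (x * y * x⁻¹ * y⁻¹) ^ r = 1 := by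
  have h1 : ⁅(⟨x, hx⟩ : R), ⟨y, hy⟩⁆ ∈ Subgroup.center R := by
    rw [← S.hext, commutator_def]
    exact Subgroup.commutator_mem_commutator (Subgroup.mem_top _) (Subgroup.mem_top _)
  have h2 : x * y * x⁻¹ * y⁻¹ ∈ R :=
    mul_mem (mul_mem (mul_mem hx hy) (inv_mem hx)) (inv_mem hy)
  refine ⟨h2, ?_, ?_⟩
  · apply centralizer_scalar S
    intro w hw
    have h3 := (Subgroup.mem_center_iff.mp h1) ⟨w, hw⟩
    have h4 := congrArg Subtype.val h3
    simpa [commutatorElement_def] using h4.symm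
  · have h3 : (⟨⁅(⟨x, hx⟩ : R), ⟨y, hy⟩⁆, h1⟩ : Subgroup.center R) ^ r = 1 := by
      rw [← S.hZ]
      exact pow_card_eq_one'
    have h4 := congrArg (fun z : Subgroup.center R => ((z : R) : GLn n F)) h3
    simpa [commutatorElement_def] using h4

theorem comm_eq {G : Type*} [Group G] (x y s t : G) (hs : ∀ w, s * w = w * s)
    (ht : ∀ w, t * w = w * t) :
    (x * s) * (y * t) * (x * s)⁻¹ * (y * t)⁻¹ = x * y * x⁻¹ * y⁻¹ := by
  rw [mul_inv_eq_iff_eq_mul, mul_inv_eq_iff_eq_mul]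
  calc x * s * (y * t) = x * (s * y) * t := by group
    _ = x * (y * s) * t := by rw [hs y]
    _ = x * y * (s * t) := by group
    _ = x * y * (t * s) := by rw [hs t]
    _ = x * y * x⁻¹ * (x * t) * s := by group
    _ = x * y * x⁻¹ * (t * x) * s := by rw [ht x]
    _ = x * y * x⁻¹ * y⁻¹ * (y * t) * (x * s) := by group

/-- `r`-th powers of elements of `R` are scalar -/
theorem pow_scalar [Fintype F] {r : ℕ} {R : Subgroup (GLn n F)} (S : Setup F n r R)
    {x : GLn n F} (hx : x ∈ R) : x ^ r ∈ Sc n F := by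
  apply centralizer_scalar S
  intro y hy
  obtain ⟨-, hz, hzr⟩ := comm_mem S hy hx
  set z := y * x * y⁻¹ * x⁻¹ with hzdef
  have h1 : y * x * y⁻¹ = z * x := by rw [hzdef]; group
  have h2 : y * x ^ r * y⁻¹ = x ^ r := by
    rw [← conj_pow, h1, (show Commute z x from sc_central hz x).mul_pow, hzr, one_mul]
  calc x ^ r * y = (y * x ^ r * y⁻¹) * y := by rw [h2]
    _ = y * x ^ r := by group

theorem main : BasA.{u} := by
  intro F _ _ n r R S
  refine ⟨fun a ha => centralizer_scalar S a ha, ?_, ?_⟩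
  · intro a ha b hb
    obtain ⟨x, hx, s, hs, rfl⟩ := mem_RZ ha
    obtain ⟨y, hy, t, ht, rfl⟩ := mem_RZ hb
    rw [comm_eq x y s t (sc_central hs) (sc_central ht)]
    obtain ⟨h1, h2, -⟩ := comm_mem S hx hy
    exact ⟨h2, h1⟩
  · intro h hh
    obtain ⟨x, hx, s, hs, rfl⟩ := mem_RZ hh
    rw [(show Commute x s from (sc_central hs x).symm).mul_pow]
    exact mul_mem (pow_scalar S hx) (pow_mem hs r)

end Cfsg.Agent.Lib.Helper51.ExBASA
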