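import Mathlib
import Cfsg.Agent.Lib.Helper24.ExStmt
import Cfsg.Agent.Lib.Helper51.ExBASA

/-!
# S5877 piece BASB: basic facts on `R ⊔ Sc`, part B

* `n_ne_zero`, `sc_injective`;
* `roots_mem`: the scalars of order dividing `r` lie in `R`;
* `exists_noncomm`: `R` is not abelian;
* `r_dvd_n`;
* `pow_r_eq_one`: for odd `r` the group `R` has exponent `r`;
* `main : BasB`.
-/

set_option autoImplicit false

namespace Cfsg.Agent.Lib.Helper51.ExBASB

open Cfsg Cfsg.Agent.Lib.Helper24.ExStmt Cfsg.Agent.Lib.Helper51.ExBASA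
open Matrix
open scoped commutatorElement

universe u

variable {F : Type u} [Field F] {n : ℕ}

theorem n_ne_zero [Fintype F] {r : ℕ} {R : Subgroup (GLn n F)} (S : Setup F n r R) : n ≠ 0 := by
  rintro rfl
  have h1 : Subsingleton (GLn 0 F) := by
    refine ⟨fun a b => Units.ext ?_⟩
    ext i
    exact i.elim0
  have h2 : Subsingleton (Subgroup.center R) := ⟨fun a b => Subtype.ext (Subtype.ext (h1.elim _ _))⟩
  have h3 : Nat.card (Subgroup.center R) = 1 := Nat.card_unique
  have := S.hr.one_lt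
  rw [← S.hZ, h3] at this
  exact lt_irrefl _ this

theorem sc_injective (hn : n ≠ 0) : Function.Injective (sc (F := F) n) := by
  intro a b hab
  have : Nonempty (Fin n) := ⟨⟨0, Nat.pos_of_ne_zero hn⟩⟩
  have h1 := congrArg Units.val hab
  simp only [sc, Units.coe_map, RingHom.toMonoidHom_eq_coe, MonoidHom.coe_coe] at h1
  exact Units.ext (Matrix.scalar_inj.mp h1)

theorem sc_one : sc (F := F) n 1 = 1 := by simp [sc]

theorem sc_pow (s : Fˣ) (k : ℕ) : sc n (s ^ k) = sc n s ^ k := by simp [sc]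

theorem roots_mem [Fintype F] {r : ℕ} {R : Subgroup (GLn n F)} (S : Setup F n r R)
    (s : Fˣ) (hs : s ^ r = 1) : sc n s ∈ R := by
  have hr := S.hr
  have : NeZero r := ⟨hr.ne_zero⟩
  have hn : n ≠ 0 := n_ne_zero S
  let ψ : Fˣ →* GLn n F :=
    Units.map (Matrix.scalar (Fin n) : F →+* Matrix (Fin n) (Fin n) F).toMonoidHom
  have hψ : Function.Injective ψ := sc_injective hn
  let Z' : Subgroup (GLn n F) := (Subgroup.center R).map R.subtype
  have hZ'card : Nat.card Z' = r := by
    rw [Subgroup.card_map_of_injective R.subtype_injective]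
    exact S.hZ
  have hZ'le : Z' ≤ ψ.range := by
    rintro _ ⟨z, hz, rfl⟩
    refine centralizer_scalar S _ (fun y hy => ?_)
    have h3 := (Subgroup.mem_center_iff.mp hz) ⟨y, hy⟩
    exact (congrArg Subtype.val h3).symm
  let U : Subgroup Fˣ := Z'.comap ψ
  have hUmap : U.map ψ = Z' := Subgroup.map_comap_eq_self hZ'le
  have hUcard : Nat.card U = r := by
    rw [← hZ'card, ← hUmap, Subgroup.card_map_of_injective hψ]
  have hUle : U ≤ rootsOfUnity r F := by
    intro u hu
    rw [mem_rootsOfUnity]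
    have h4 : (⟨u, hu⟩ : U) ^ r = 1 := by
      rw [← hUcard]
      exact pow_card_eq_one'
    exact congrArg Subtype.val h4
  have hcard : Nat.card (rootsOfUnity r F) ≤ r := card_rootsOfUnity F r
  have hU : U = rootsOfUnity r F :=
    Subgroup.eq_of_le_of_card_ge hUle (by rw [hUcard]; exact hcard)
  have h5 : s ∈ U := by
    rw [hU, mem_rootsOfUnity]
    exact hs
  obtain ⟨z, -, hzs⟩ := (show ψ s ∈ Z' from h5)
  have h6 : sc n s = (z : GLn n F) := hzs.symm
  rw [h6]
  exact z.2

theorem exists_noncomm [Fintype F] {r : ℕ} {R : Subgroup (GLn n F)} (S : Setup F n r R) :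
    ∃ x ∈ R, ∃ y ∈ R, y * x * y⁻¹ * x⁻¹ ≠ 1 := by
  by_contra hcon
  have hall : ∀ x ∈ R, ∀ y ∈ R, y * x * y⁻¹ * x⁻¹ = 1 := by
    intro x hx y hy
    by_contra h
    exact hcon ⟨x, hx, y, hy, h⟩
  have h1 : commutator R = ⊥ := by
    rw [commutator_def, Subgroup.commutator_eq_bot_iff_le_centralizer]
    intro a _
    rw [Subgroup.mem_centralizer_iff]
    intro b _
    have h2 := hall a.1 a.2 b.1 b.2
    have h3 : (b : GLn n F) * a = a * b := by
      have h4 : (b : GLn n F) * a * (b : GLn n F)⁻¹ * (a : GLn n F)⁻¹ * a * b = a * b := by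
        rw [h2, one_mul]
      rw [← h4]
      group
    exact Subtype.ext h3
  have h2 : Nat.card (Subgroup.center R) = 1 := by
    rw [← S.hext, h1]
    simp
  have := S.hr.one_lt
  rw [← S.hZ, h2] at this
  exact lt_irrefl _ this

theorem det_sc (s : Fˣ) : Matrix.GeneralLinearGroup.det (sc n s) = s ^ n := by
  apply Units.ext
  rw [Matrix.GeneralLinearGroup.val_det_apply]
  simp [sc, Matrix.det_diagonal]

theorem r_dvd_n [Fintype F] {r : ℕ} {R : Subgroup (GLn n F)} (S : Setup F n r R) : r ∣ n := by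
  have hn : n ≠ 0 := n_ne_zero S
  obtain ⟨x, hx, y, hy, hne⟩ := exists_noncomm S
  obtain ⟨-, hz, hzr⟩ := comm_mem S hy hx
  obtain ⟨ζ, hζ⟩ := hz
  change sc n ζ = _ at hζ
  have hζr : ζ ^ r = 1 := by
    apply sc_injective hn
    rw [sc_pow, hζ, hzr, sc_one]
  have hζ1 : ζ ≠ 1 := by
    rintro rfl
    rw [sc_one] at hζ
    exact hne hζ.symm
  have hord : orderOf ζ = r := by
    have h1 : orderOf ζ ∣ r := orderOf_dvd_of_pow_eq_one hζr
    rcases (Nat.dvd_prime S.hr).mp h1 with h | h
    · exact absurd (orderOf_eq_one_iff.mp h) hζ1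
    · exact h
  have hdet : Matrix.GeneralLinearGroup.det (y * x * y⁻¹ * x⁻¹) = 1 := by
    rw [map_mul, map_mul, map_mul, map_inv, map_inv,
      mul_comm (Matrix.GeneralLinearGroup.det y) (Matrix.GeneralLinearGroup.det x)]
    simp
  rw [← hζ, det_sc] at hdet
  rw [← hord]
  exact orderOf_dvd_of_pow_eq_one hdet

theorem pow_r_eq_one [Fintype F] {r : ℕ} {R : Subgroup (GLn n F)} (S : Setup F n r R)
    (hodd : Odd r) {x : GLn n F} (hx : x ∈ R) : x ^ r = 1 := by
  rcases S.hexp with h | h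
  · have h1 : (⟨x, hx⟩ : R) ^ r = 1 := by
      rw [← h]
      exact Monoid.pow_exponent_eq_one _
    exact congrArg Subtype.val h1
  · exfalso
    have hall : ∀ w : R, w = 1 := by
      intro w
      have h1 : orderOf w ∣ 4 := h ▸ Monoid.order_dvd_exponent w
      obtain ⟨k, hk⟩ := S.hR w
      have h2 : orderOf w ∣ r ^ k := orderOf_dvd_of_pow_eq_one hk
      have h3 : Nat.Coprime (r ^ k) 4 := by
        apply Nat.Coprime.pow_left
        have : Nat.Coprime r 2 := Nat.coprime_two_right.mpr hodd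
        exact Nat.Coprime.pow_right 2 this
      have h4 : orderOf w ∣ 1 := by
        have := Nat.dvd_gcd h2 h1
        rwa [h3] at this
      exact orderOf_eq_one_iff.mp (Nat.dvd_one.mp h4)
    have h2 : Subsingleton (Subgroup.center R) :=
      ⟨fun a b => Subtype.ext ((hall a.1).trans (hall b.1).symm)⟩
    have h3 : Nat.card (Subgroup.center R) = 1 := Nat.card_unique
    have := S.hr.one_lt
    rw [← S.hZ, h3] at this
    exact lt_irrefl _ this

theorem main : BasB.{u} := by
  intro F _ _ n r R S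
  refine ⟨fun s hs => roots_mem S s hs, r_dvd_n S, fun hodd x hx => pow_r_eq_one S hodd hx, ?_⟩
  intro hodd g hg x hx
  have hn : n ≠ 0 := n_ne_zero S
  have h1 : g * x * g⁻¹ ∈ R ⊔ Sc n F :=
    ((Subgroup.mem_normalizer_iff.mp hg) x).mp (Subgroup.mem_sup_left hx)
  obtain ⟨y, hy, s, hs, hys⟩ := mem_RZ h1
  have h2 : (g * x * g⁻¹) ^ r = 1 := by
    rw [conj_pow, pow_r_eq_one S hodd hx]
    group
  rw [← hys, (show Commute y s from (sc_central hs y).symm).mul_pow, pow_r_eq_one S hodd hy,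
    one_mul] at h2
  obtain ⟨σ, hσ⟩ := hs
  change sc n σ = s at hσ
  have h3 : σ ^ r = 1 := by
    apply sc_injective hn
    rw [sc_pow, hσ, h2, sc_one]
  rw [← hys, ← hσ]
  exact mul_mem hy (roots_mem S σ h3)

end Cfsg.Agent.Lib.Helper51.ExBASB
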