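import Mathlib
import Cfsg.Agent.Lib.Helper24.ExStmt

/-!
# S5877 piece HALF, reduced to the piece EIG

`W ⊓ y W` is fixed pointwise by `cm y g`, which is a non-scalar element of `R ⊔ Sc`.
-/

set_option autoImplicit false

namespace Cfsg.Agent.Lib.Helper51.ExHALFof

open Cfsg Cfsg.Agent.Lib.Helper24.ExStmt
open Matrix

universe u

theorem eDim_zero {F : Type u} [Field F] {n : ℕ} (g : GLn n F) : eDim g 0 = 0 := by
  unfold eDim
  have h : Module.End.eigenspace (Matrix.toLin' (g : Matrix (Fin n) (Fin n) F)) 0 = ⊥ := by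
    rw [eq_bot_iff]
    intro w hw
    rw [Module.End.mem_eigenspace_iff] at hw
    simp only [Matrix.toLin'_apply, zero_smul] at hw
    have h2 : ((g⁻¹ : GLn n F) : Matrix (Fin n) (Fin n) F) *ᵥ
        ((g : Matrix (Fin n) (Fin n) F) *ᵥ w) = w := by
      rw [Matrix.mulVec_mulVec, ← Units.val_mul, inv_mul_cancel]
      simp
    rw [hw] at h2
    simp at h2
    simp [← h2]
  rw [h]
  simp

theorem main_of_eig (hE : EigBound.{u}) : Half.{u} := by
  intro F _ _ n r R S g hg y hy hns c
  have hmem : cm y g ∈ R ⊔ Sc n F := by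
    have hy' : y⁻¹ ∈ R ⊔ Sc n F := inv_mem (Subgroup.mem_sup_left hy)
    have h1 : g * y⁻¹ * g⁻¹ ∈ R ⊔ Sc n F := by
      have h2 := (Subgroup.mem_normalizer_iff.mp hg) y⁻¹
      exact h2.mp hy'
    have h3 : cm y g = y * (g * y⁻¹ * g⁻¹) := by simp [cm, mul_assoc]
    rw [h3]
    exact mul_mem (Subgroup.mem_sup_left hy) h1
  have h1 := hE F n r R S (cm y g) hmem hns 1
  by_cases hc : c = 0
  · subst hc
    rw [eDim_zero]
    simp
  set W := Module.End.eigenspace (Matrix.toLin' (g : Matrix (Fin n) (Fin n) F)) c with hW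
  set fy := Matrix.toLin' (y : Matrix (Fin n) (Fin n) F) with hfy
  have hinj : Function.Injective fy := by
    intro v w hvw
    have h2 : ∀ v : Fin n → F, ((y⁻¹ : GLn n F) : Matrix (Fin n) (Fin n) F) *ᵥ (fy v) = v := by
      intro v
      rw [hfy, Matrix.toLin'_apply, Matrix.mulVec_mulVec, ← Units.val_mul, inv_mul_cancel]
      simp
    rw [← h2 v, ← h2 w, hvw]
  have hdim : Module.finrank F (W.map fy) = Module.finrank F W :=
    (LinearEquiv.finrank_eq (Submodule.equivMapOfInjective fy hinj W)).symm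
  have hle : W ⊓ W.map fy ≤
      Module.End.eigenspace (Matrix.toLin' ((cm y g : GLn n F) : Matrix (Fin n) (Fin n) F)) 1 := by
    intro w hw
    obtain ⟨hw1, hw2⟩ := hw
    obtain ⟨w', hw', rfl⟩ := hw2
    rw [SetLike.mem_coe] at hw1 hw'
    rw [Module.End.mem_eigenspace_iff] at hw1 hw'
    rw [Module.End.mem_eigenspace_iff, one_smul]
    simp only [Matrix.toLin'_apply, hfy] at hw1 hw' ⊢
    have h5 : (cm y g : GLn n F) * g * y = y * g := by simp [cm, mul_assoc]
    have h6 : ((cm y g : GLn n F) : Matrix (Fin n) (Fin n) F) *ᵥ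
        ((g : Matrix (Fin n) (Fin n) F) *ᵥ ((y : Matrix (Fin n) (Fin n) F) *ᵥ w')) =
        (y : Matrix (Fin n) (Fin n) F) *ᵥ ((g : Matrix (Fin n) (Fin n) F) *ᵥ w') := by
      rw [Matrix.mulVec_mulVec, Matrix.mulVec_mulVec, Matrix.mulVec_mulVec, ← Units.val_mul,
        ← Units.val_mul, ← Units.val_mul, h5]
    rw [hw1, hw', Matrix.mulVec_smul, Matrix.mulVec_smul] at h6
    exact smul_right_injective _ hc h6
  have h7 : Module.finrank F ((W ⊓ W.map fy : Submodule F (Fin n → F))) ≤ eDim (cm y g) 1 :=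
    Submodule.finrank_mono hle
  have h8 := Submodule.finrank_sup_add_finrank_inf_eq W (W.map fy)
  have h9 : Module.finrank F ((W ⊔ W.map fy : Submodule F (Fin n → F))) ≤ n := by
    have := Submodule.finrank_le (W ⊔ W.map fy)
    simpa using this
  have h10 : eDim g c = Module.finrank F W := rfl
  rw [hdim] at h8
  rw [h10]
  nlinarith
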