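import Mathlib
import Cfsg.Agent.Lib.Helper24.ExStmt
import Cfsg.Agent.Lib.Helper51.ExBASA
import Cfsg.Agent.Lib.Helper51.ExHALFof
import Cfsg.Agent.Lib.Helper59.ExEIG

/-!
# S5877 piece HALF (unconditional form)
-/

set_option autoImplicit false

namespace Cfsg.Agent.Lib.Helper51.ExHALF

open Cfsg Cfsg.Agent.Lib.Helper24.ExStmt

universe u

/-- the piece EIG, unconditionally -/
theorem eig : EigBound.{u} :=
  Cfsg.Agent.Lib.Helper59.ExEIG.main Cfsg.Agent.Lib.Helper51.ExBASA.main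

theorem main : Half.{u} := Cfsg.Agent.Lib.Helper51.ExHALFof.main_of_eig eig

end Cfsg.Agent.Lib.Helper51.ExHALF
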