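import Mathlib
import Cfsg.Agent.Lib.Helper40.SFStmt

/-!
# S5664 piece TVEVEN1 (helper51)

Characteristic two, `[L : F] ≥ 3`: a Siegel element of `c.M` gives an `F`-transvection in `c.M`
(via `Orbit`, `Hua`, `Trans`).
-/

set_option autoImplicit false

namespace Cfsg.Agent.Lib.Helper51.SFTVEVEN1

open Cfsg.Agent.Lib.Helper94.Basic Cfsg.Agent.Lib.Helper40.SFStmt

universe u

section
variable {F L : Type u} [Field F] [Field L] [Algebra F L] {n : ℕ}

/-- The quotient of two Siegel elements for the same `d`. -/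
theorem quot_siegel (τ : L →ₗ[F] F) (e e' : W n L ≃ₗ[F] W n L) (d w z : W n L) (c₀ : F)
    (hS : IsSiegel τ e d w c₀) (hS' : IsSiegel τ e' d (w + z) c₀) (hwd : ff τ w d = 0)
    (hdz : ff τ d z = 0) (y : W n L) :
    (e' * e⁻¹) y = y + (ff τ y z - ff τ w z * ff τ y d) • d + ff τ y d • z := by
  obtain ⟨x, rfl⟩ := e.surjective y
  have h1 : (e' * e⁻¹) (e x) = e' x := by
    show e' (e.symm (e x)) = e' x
    rw [LinearEquiv.symm_apply_apply]
  rw [h1]
  have hyd : ff τ (e x) d = ff τ x d := by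
    rw [hS x]
    simp only [ff_add_left, ff_smul_left, ff_self, hwd]
    ring
  have hyz : ff τ (e x) z = ff τ x z + ff τ x d * ff τ w z := by
    rw [hS x]
    simp only [ff_add_left, ff_smul_left, hdz]
    ring
  rw [hyd, hyz, hS' x, hS x, ff_add_right]
  module

/-- Conjugating by an isometry. -/
theorem conj_formula (τ : L →ₗ[F] F) (h' k : W n L ≃ₗ[F] W n L) (d z : W n L) (ν : F)
    (hiso : ∀ a b, ff τ (h' a) (h' b) = ff τ a b)
    (hk : ∀ y, k y = y + (ff τ y z - ν * ff τ y d) • d + ff τ y d • z) (x : W n L) :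
    (h' * k * h'⁻¹) x =
      x + (ff τ x (h' z) - ν * ff τ x (h' d)) • h' d + ff τ x (h' d) • h' z := by
  obtain ⟨y, rfl⟩ := h'.surjective x
  have h1 : (h' * k * h'⁻¹) (h' y) = h' (k y) := by
    show h' (k (h'.symm (h' y))) = h' (k y)
    rw [LinearEquiv.symm_apply_apply]
  rw [h1, hk y, map_add, map_add, map_smul, map_smul, hiso, hiso]

end

theorem main (h1 : Orbit.{u}) (h2 : Hua.{u}) (h3 : Trans.{u}) : TvEven1.{u} := by
  intro F L _ _ _ _ n c h20 h3r e he d w c₀ hS hd hwd hB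
  -- the hyperplane `S`
  set ℓ : L := Cfsg.sympForm n L w d with hℓ
  let φ : L →ₗ[F] F := c.τ ∘ₗ LinearMap.mulRight F ℓ
  have hφ : ∀ a : L, φ a = c.τ (a * ℓ) := fun a => rfl
  obtain ⟨b, hb⟩ : ∃ b : L, c.τ b ≠ 0 := by
    by_contra hcon
    apply c.hτ
    ext a
    by_contra ha
    exact hcon ⟨a, ha⟩
  have hsurj : Function.Surjective φ := by
    intro t
    refine ⟨(t / c.τ b) • (b * ℓ⁻¹), ?_⟩
    rw [map_smul, hφ, inv_mul_cancel_right₀ hB, smul_eq_mul, div_mul_cancel₀ _ hb]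
  have hfin : Module.finrank F (LinearMap.ker φ) + 1 = Module.finrank F L := by
    have hrn := LinearMap.finrank_range_add_finrank_ker φ
    rw [LinearMap.range_eq_top.mpr hsurj, finrank_top, Module.finrank_self] at hrn
    omega
  have h1S : (1 : L) ∈ LinearMap.ker φ := by
    rw [LinearMap.mem_ker, hφ, one_mul]
    exact hwd
  obtain ⟨υ, hυS, hυ0, hυi⟩ := h2 F L h20 h3r (LinearMap.ker φ) h1S hfin
  rw [LinearMap.mem_ker, hφ] at hυS
  have hν2 : c.τ (υ⁻¹ * ℓ) ≠ 0 := by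
    intro h
    apply hυi
    rw [LinearMap.mem_ker, hφ]
    exact h
  -- the two Siegel elements
  have hBu1 : Cfsg.sympForm n L (υ • d) d = 0 := by
    rw [sympForm_smul_left, sympForm_self, mul_zero]
  have hBu2 : Cfsg.sympForm n L (υ⁻¹ • d) d = 0 := by
    rw [sympForm_smul_left, sympForm_self, mul_zero]
  obtain ⟨e₁, he₁, hS₁⟩ := h1 F L n c e he d w c₀ hS hB (υ • d) hBu1
  obtain ⟨e₂, he₂, hS₂⟩ := h1 F L n c e he d w c₀ hS hB (υ⁻¹ • d) hBu2
  -- the isometry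
  have hD0 : υ • d ≠ 0 := smul_ne_zero hυ0 hd
  obtain ⟨h, hiso, hhd⟩ := h3 L n d (υ • d) hd hD0
  have hh'M : h.restrictScalars F ∈ c.M := c.hsub h hiso
  have hiso' : ∀ a b, ff c.τ ((h.restrictScalars F) a) ((h.restrictScalars F) b) = ff c.τ a b := by
    intro a b
    show c.τ (Cfsg.sympForm n L (h a) (h b)) = c.τ (Cfsg.sympForm n L a b)
    rw [hiso]
  have hh'd : (h.restrictScalars F) d = υ • d := hhd
  have hh'z : (h.restrictScalars F) (υ⁻¹ • d) = d := by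
    show h (υ⁻¹ • d) = d
    rw [map_smul, hhd, smul_smul, inv_mul_cancel₀ hυ0, one_smul]
  -- form values
  have hdD : ff c.τ d (υ • d) = 0 := by
    rw [ff_lsmul_right, sympForm_self, mul_zero, map_zero]
  have hDd : ff c.τ (υ • d) d = 0 := by rw [ff_skew, hdD, neg_zero]
  have hdz : ff c.τ d (υ⁻¹ • d) = 0 := by
    rw [ff_lsmul_right, sympForm_self, mul_zero, map_zero]
  have hwD : ff c.τ w (υ • d) = 0 := by
    rw [ff_lsmul_right]; exact hυS
  have hwz : ff c.τ w (υ⁻¹ • d) ≠ 0 := by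
    rw [ff_lsmul_right]; exact hν2
  -- the element
  refine ⟨(e₁ * e⁻¹) * ((h.restrictScalars F) * (e₂ * e⁻¹) * (h.restrictScalars F)⁻¹),
    c.M.mul_mem (c.M.mul_mem he₁ (c.M.inv_mem he))
      (c.M.mul_mem (c.M.mul_mem hh'M (c.M.mul_mem he₂ (c.M.inv_mem he))) (c.M.inv_mem hh'M)),
    υ • d, ff c.τ w (υ⁻¹ • d), hD0, hwz, ?_⟩
  intro x
  have hP := conj_formula c.τ (h.restrictScalars F) (e₂ * e⁻¹) d (υ⁻¹ • d)
    (ff c.τ w (υ⁻¹ • d)) hiso' (quot_siegel c.τ e e₂ d w (υ⁻¹ • d) c₀ hS hS₂ hwd hdz) x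
  rw [hh'd, hh'z] at hP
  have hK := quot_siegel c.τ e e₁ d w (υ • d) c₀ hS hS₁ hwd hdD
    (((h.restrictScalars F) * (e₂ * e⁻¹) * (h.restrictScalars F)⁻¹) x)
  have hmul : ((e₁ * e⁻¹) * ((h.restrictScalars F) * (e₂ * e⁻¹) * (h.restrictScalars F)⁻¹)) x =
      (e₁ * e⁻¹) (((h.restrictScalars F) * (e₂ * e⁻¹) * (h.restrictScalars F)⁻¹) x) := rfl
  rw [hmul, hK, hP, hwD]
  simp only [ff_add_left, ff_smul_left, ff_self, hDd, hdD]
  have key : ∀ (A B N : F) (X D E : W n L),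
      X + (A - N * B) • D + B • E + (B + (A - N * B) * 0 + B * 0 - 0 * (A + (A - N * B) * 0 + B * 0)) • E
        + (A + (A - N * B) * 0 + B * 0) • D
      = X + (N * B) • D + (2 : F) • (A • D + B • E - (N * B) • D) := by
    intro A B N X D E
    module
  rw [key (ff c.τ x d) (ff c.τ x (υ • d)) (ff c.τ w (υ⁻¹ • d)) x (υ • d) d, h20, zero_smul,
    add_zero]

end Cfsg.Agent.Lib.Helper51.SFTVEVEN1
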