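import Mathlib
import Cfsg.Agent.Lib.Helper79.SNStmt
import Cfsg.Agent.S0081
import Cfsg.Agent.S0012
import Cfsg.Agent.S0086

/-!
# S4931 piece TATEK: a normal subgroup `Q` with `Q ∩ P ≤ P'` has a normal `p`-complement that
is normal in the whole group.
-/

set_option autoImplicit false

namespace Cfsg.Agent.Lib.Helper51.SNTATEK

open Cfsg Cfsg.Agent.Lib.Helper79.SNStmt

universe u

theorem map_commutator_subtype {G : Type u} [Group G] (P : Subgroup G) :
    (commutator ↥P).map P.subtype = ⁅P, P⁆ := by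
  rw [commutator_def, Subgroup.map_commutator, ← MonoidHom.range_eq_map, Subgroup.range_subtype]

theorem main : TateK.{u} := by
  intro G _ _ p hp P Q hQ hQP
  classical
  have hpp : p.Prime := hp.out
  -- the hypothesis of Tate's theorem
  have h1 : Q ⊓ (P : Subgroup G) ≤ (frattini ↥(P : Subgroup G)).map (P : Subgroup G).subtype := by
    refine hQP.trans ?_
    rw [← map_commutator_subtype]
    exact Subgroup.map_mono (Cfsg.Agent.S0012.result p P.2).1
  obtain ⟨P₁, K₀, hK₀n, hc⟩ := Cfsg.Agent.S0081.result P Q h1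
  have hmem : ∀ x : ↥Q, x ∈ K₀ ↔ Nat.Coprime (orderOf (x : G)) p := by
    intro x
    rw [Subgroup.orderOf_coe]
    exact Cfsg.Agent.S0086.result P₁ K₀ hc x
  have hK : ∀ y : G, y ∈ K₀.map Q.subtype ↔ y ∈ Q ∧ Nat.Coprime (orderOf y) p := by
    intro y
    constructor
    · rintro ⟨x, hx, rfl⟩
      exact ⟨x.2, (hmem x).mp hx⟩
    · rintro ⟨hyQ, hy⟩
      exact ⟨⟨y, hyQ⟩, (hmem ⟨y, hyQ⟩).mpr hy, rfl⟩
  have hKn : (K₀.map Q.subtype).Normal := by
    refine ⟨fun y hy g => ?_⟩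
    rw [hK] at hy ⊢
    refine ⟨hQ.conj_mem y hy.1 g, ?_⟩
    have h2 : orderOf (g * y * g⁻¹) = orderOf y := by
      have h3 := (MulAut.conj g).orderOf_eq y
      rwa [MulAut.conj_apply] at h3
    rw [h2]; exact hy.2
  refine ⟨K₀.map Q.subtype, hKn, Subgroup.map_subtype_le K₀, ?_, ?_⟩
  · -- trivial intersection with `P`
    rw [eq_bot_iff]
    intro y hy
    obtain ⟨hyK, hyP⟩ := Subgroup.mem_inf.mp hy
    obtain ⟨-, hcop⟩ := (hK y).mp hyK
    obtain ⟨k, hk⟩ := P.2 ⟨y, hyP⟩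
    have h4 : y ^ (p ^ k) = 1 := by
      have h5 := congrArg Subtype.val hk
      simpa using h5
    have h6 : orderOf y ∣ p ^ k := orderOf_dvd_of_pow_eq_one h4
    have h7 : orderOf y = 1 := Nat.Coprime.eq_one_of_dvd (Nat.Coprime.pow_right k hcop) h6
    rw [Subgroup.mem_bot]
    exact orderOf_eq_one_iff.mp h7
  · -- `Q ≤ K ⊔ P`
    obtain ⟨P', hP'⟩ := Sylow.exists_comap_subtype_eq P₁
    obtain ⟨g, hg⟩ := MulAction.exists_smul_eq G P P'
    intro x hx
    have hgx : g * x * g⁻¹ ∈ Q := hQ.conj_mem x hx g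
    obtain ⟨⟨k₀, s⟩, hks⟩ := hc.2 ⟨g * x * g⁻¹, hgx⟩
    have hks' : (k₀ : G) * (s : G) = g * x * g⁻¹ := by
      have h8 := congrArg Subtype.val hks
      simpa using h8
    -- `s` lies in `P' = g P g⁻¹`
    have hsP' : ((s : ↥Q) : G) ∈ (P' : Subgroup G) := by
      have h9 : (s : ↥Q) ∈ (P' : Subgroup G).comap Q.subtype := by
        rw [hP']; exact s.2
      exact h9
    have hsP : g⁻¹ * ((s : ↥Q) : G) * g ∈ (P : Subgroup G) := by
      rw [← hg, Sylow.smul_def, Sylow.pointwise_smul_def,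
        Subgroup.mem_smul_pointwise_iff_exists] at hsP'
      obtain ⟨t, ht, hts⟩ := hsP'
      rw [MulAut.smul_def, MulAut.conj_apply] at hts
      rw [← hts]
      have h10 : g⁻¹ * (g * t * g⁻¹) * g = t := by group
      rw [h10]; exact ht
    have hkK : g⁻¹ * ((k₀ : ↥Q) : G) * g ∈ K₀.map Q.subtype := by
      have h11 : ((k₀ : ↥Q) : G) ∈ K₀.map Q.subtype := ⟨k₀, k₀.2, rfl⟩
      have h12 := hKn.conj_mem _ h11 g⁻¹
      rwa [inv_inv] at h12
    have hx' : x = (g⁻¹ * ((k₀ : ↥Q) : G) * g) * (g⁻¹ * ((s : ↥Q) : G) * g) := by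
      have h13 : x = g⁻¹ * (g * x * g⁻¹) * g := by group
      rw [h13, ← hks']; group
    rw [hx']
    exact Subgroup.mul_mem _ (Subgroup.mem_sup_left hkK) (Subgroup.mem_sup_right hsP)

end Cfsg.Agent.Lib.Helper51.SNTATEK
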