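import Mathlib
import Cfsg.Agent.Lib.Helper14.TC3Stmt
import Cfsg.Agent.Lib.Helper3.TDBasic
import Cfsg.Agent.Lib.Helper80.Integrality
import Cfsg.Agent.S4456

/-!
# S4460 piece PCOMPL: a common prime divisor of the two nonlinear degrees gives a normal
`p`-complement whose degrees are the `p'`-parts.
-/

set_option autoImplicit false

namespace Cfsg.Agent.Lib.Helper51.TC3PCOMPL

open Cfsg Cfsg.Agent.Lib.Helper14.TC3Stmt

universe u

theorem main : PCompl.{u} := by
  intro G _ _ m n p hp hdeg hpm hpn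
  classical
  have hnl : ∀ χ : IrrCharacter G, charDegree (χ : G → ℂ) ≠ 1 → p ∣ charDegree (χ : G → ℂ) := by
    intro χ hχ
    rcases hdeg χ with h | h | h
    · exact absurd h hχ
    · rw [h]; exact hpm
    · rw [h]; exact hpn
  obtain ⟨H, hHn, hHc, k, hk⟩ := Cfsg.Agent.S4456.result p hp hnl
  refine ⟨H, hHn, hHc, ⟨k, hk⟩, ?_⟩
  intro θ
  have : Fintype H := Fintype.ofFinite H
  obtain ⟨χ, -, hdvd, hquot⟩ := Cfsg.Agent.Lib.Helper3.TDBasic.exists_over H θ
  have hθH := Cfsg.Agent.Lib.Helper80.Integrality.charDegree_dvd_card θ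
  have hθcop : (charDegree (θ : H → ℂ)).Coprime p := Nat.Coprime.coprime_dvd_left hθH hHc
  have hdpos : 0 < charDegree (θ : H → ℂ) :=
    Cfsg.Agent.Lib.Helper80.Integrality.charDegree_pos θ
  have key : charDegree (θ : H → ℂ) = ordCompl[p] (charDegree (χ : G → ℂ)) := by
    obtain ⟨e, he⟩ := hdvd
    have he' : charDegree (χ : G → ℂ) / charDegree (θ : H → ℂ) = e := by
      rw [he]; exact Nat.mul_div_cancel_left e hdpos
    rw [he', hk] at hquot
    obtain ⟨j, -, rfl⟩ := (Nat.dvd_prime_pow hp).mp hquot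
    rw [he, Nat.ordCompl_mul]
    have h1 : ordCompl[p] (charDegree (θ : H → ℂ)) = charDegree (θ : H → ℂ) := by
      have h0 : ¬ p ∣ charDegree (θ : H → ℂ) := fun h =>
        hp.one_lt.ne' (Nat.Coprime.eq_one_of_dvd hθcop.symm h)
      rw [Nat.factorization_eq_zero_of_not_dvd h0, pow_zero, Nat.div_one]
    have h2 : ordCompl[p] (p ^ j) = 1 := by
      rw [hp.factorization_pow, Finsupp.single_eq_same]
      exact Nat.div_self (pow_pos hp.pos j)
    rw [h1, h2, mul_one]
  rcases hdeg χ with h | h | h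
  · left
    rw [key, h]
    simp
  · right; left; rw [key, h]
  · right; right; rw [key, h]

end Cfsg.Agent.Lib.Helper51.TC3PCOMPL
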