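import Mathlib
import Cfsg.Agent.Lib.Helper30.XSOut

set_option autoImplicit false
set_option linter.unusedSectionVars false
set_option linter.unusedVariables false

namespace Cfsg.Agent.Lib.Helper51.XSAlg

open Cfsg.Agent.Lib.Helper30.XSExt Cfsg.Agent.Lib.Helper30.XSAut Cfsg.Agent.Lib.Helper30.XSOut

variable {V : Type} [AddCommGroup V] {B : Coc V}

/-- The group algebra of `Ext B` over the field with three elements. -/
abbrev Alg (B : Coc V) : Type := MonoidAlgebra (ZMod 3) (Ext B)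

/-- A group element as an element of the group algebra. -/
noncomputable def o (x : Ext B) : Alg B := MonoidAlgebra.single x 1

theorem o_mul (x y : Ext B) : o x * o y = o (x * y) := by
  unfold o; rw [MonoidAlgebra.single_mul_single, mul_one]

theorem o_one : o (1 : Ext B) = 1 := rfl

theorem coeff_o_mul (x : Ext B) (s : Alg B) (y : Ext B) :
    (o x * s).coeff y = s.coeff (x⁻¹ * y) := by
  unfold o; rw [MonoidAlgebra.coeff_single_mul_apply, one_mul]

theorem coeff_mul_o (s : Alg B) (x y : Ext B) :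
    (s * o x).coeff y = s.coeff (y * x⁻¹) := by
  unfold o; rw [MonoidAlgebra.coeff_mul_single_apply, mul_one]

theorem coeff_o_self (x : Ext B) : (o x).coeff x = 1 := by
  unfold o; rw [MonoidAlgebra.coeff_single]; exact Finsupp.single_eq_same

theorem coeff_o_ne {x y : Ext B} (h : x ≠ y) : (o x).coeff y = 0 := by
  unfold o; rw [MonoidAlgebra.coeff_single]; exact Finsupp.single_eq_of_ne' h

theorem zz_inv : (Ext.zz : Ext B)⁻¹ = Ext.zz := inv_eq_of_mul_eq_one_left Ext.zz_sq

theorem o_zz_comm (s : Alg B) : o Ext.zz * s = s * o Ext.zz := by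
  apply MonoidAlgebra.ext
  apply Finsupp.ext
  intro y
  rw [coeff_o_mul, coeff_mul_o, zz_inv, Ext.zz_mul]

theorem three_nsmul (x : Alg B) : 3 • x = 0 := by
  have h := Nat.cast_smul_eq_nsmul (ZMod 3) 3 x
  rw [← h]
  have h3 : ((3 : ℕ) : ZMod 3) = 0 := by decide
  rw [h3, zero_smul]

/-- The central idempotent on which the central involution acts as `-1`. -/
noncomputable def eps (B : Coc V) : Alg B := o Ext.zz - 1

theorem eps_comm (s : Alg B) : s * eps B = eps B * s := by
  unfold eps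
  rw [mul_sub, sub_mul, mul_one, one_mul, o_zz_comm]

theorem o_zz_sq : o (Ext.zz : Ext B) * o Ext.zz = 1 := by
  rw [o_mul, Ext.zz_sq, o_one]

theorem eps_sq : eps B * eps B = eps B := by
  unfold eps
  rw [sub_mul, mul_sub, mul_one, one_mul, o_zz_sq]
  have h := three_nsmul (1 - o (Ext.zz : Ext B))
  have h2 : (1 : Alg B) - o Ext.zz - (o Ext.zz - 1) = o Ext.zz - 1 + 3 • (1 - o (Ext.zz : Ext B)) := by
    abel
  rw [h2, h, add_zero]

theorem o_zz_mul_eps : o Ext.zz * eps B = - eps B := by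
  unfold eps
  rw [mul_sub, mul_one, o_zz_sq]
  abel

theorem eps_mul_o_zz : eps B * o Ext.zz = - eps B := by
  rw [← eps_comm, o_zz_mul_eps]

theorem coeff_eps_one : (eps B).coeff 1 = -1 := by
  unfold eps
  rw [MonoidAlgebra.coeff_sub, Finsupp.sub_apply, coeff_o_ne Ext.zz_ne_one,
    MonoidAlgebra.coeff_one_one, zero_sub]

theorem coeff_eps_zz : (eps B).coeff Ext.zz = 1 := by
  unfold eps
  rw [MonoidAlgebra.coeff_sub, Finsupp.sub_apply, coeff_o_self, ← o_one,
    coeff_o_ne (Ne.symm Ext.zz_ne_one), sub_zero]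

theorem coeff_eps_other {x : Ext B} (h1 : x ≠ 1) (h2 : x ≠ Ext.zz) : (eps B).coeff x = 0 := by
  unfold eps
  rw [MonoidAlgebra.coeff_sub, Finsupp.sub_apply, coeff_o_ne (Ne.symm h2), ← o_one,
    coeff_o_ne (Ne.symm h1), sub_zero]

theorem eps_ne_zero : eps B ≠ 0 := by
  intro h
  have h1 := coeff_eps_zz (B := B)
  rw [h] at h1
  exact zero_ne_one h1

theorem eps_mul_one_sub : eps B * (1 - eps B) = 0 := by
  rw [mul_sub, mul_one, eps_sq, sub_self]

theorem one_sub_mul_eps : (1 - eps B) * eps B = 0 := by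
  rw [sub_mul, one_mul, eps_sq, sub_self]

theorem one_sub_eps_sq : (1 - eps B) * (1 - eps B) = 1 - eps B := by
  rw [sub_mul, one_mul, eps_mul_one_sub, sub_zero]

/-- An element of `Ext B` outside the centre is conjugate to its product with the central
involution. -/
theorem exists_conj_zz (x : Ext B) (h : x.v ≠ 0) : ∃ y : Ext B, y * x * y⁻¹ = x * Ext.zz := by
  obtain ⟨w, hw⟩ := B.nondeg x.v h
  refine ⟨⟨0, w⟩, ?_⟩
  apply Ext.ext
  · rw [Ext.conj_c, Ext.mul_c]
    show x.c + (B.β w x.v + B.β x.v w) = x.c + 1 + B.β x.v 0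
    rw [B.zero_right]
    linear_combination hw
  · rw [Ext.conj_v, Ext.mul_v]
    show x.v = x.v + 0
    rw [add_zero]

theorem eq_one_or_zz_of_v (x : Ext B) (h : x.v = 0) : x = 1 ∨ x = Ext.zz := by
  rcases Cfsg.Agent.Lib.Helper30.XSModel.Mdl.zmod_two_cases x.c with h0 | h1
  · left; exact Ext.ext h0 h
  · right; exact Ext.ext h1 h

theorem zmod3_eq_neg {t : ZMod 3} (h : t = -t) : t = 0 := by
  revert t; decide

/-- Schur's lemma for the algebra `eps * Alg`. -/
theorem schur (a : Alg B) (h1 : a * eps B = a) (h2 : ∀ x, a * o x = o x * a) :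
    a = (-(a.coeff 1)) • eps B := by
  have hz : ∀ x, a.coeff (x * Ext.zz) = - a.coeff x := by
    intro x
    have h3 : a * o Ext.zz = - a := by
      have : a * (eps B * o Ext.zz) = - a := by
        rw [eps_mul_o_zz, mul_neg, h1]
      rw [← mul_assoc, h1] at this
      exact this
    have h4 := congrArg (fun s : Alg B => s.coeff (x * Ext.zz)) h3
    simp only [coeff_mul_o, zz_inv] at h4
    rw [mul_assoc, Ext.zz_sq, mul_one] at h4
    rw [MonoidAlgebra.coeff_neg, Finsupp.neg_apply] at h4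
    rw [h4, neg_neg]
  have hc : ∀ x y, a.coeff (y * x * y⁻¹) = a.coeff x := by
    intro x y
    have h4 := congrArg (fun s : Alg B => s.coeff (y * x)) (h2 y)
    simp only [coeff_mul_o, coeff_o_mul] at h4
    rw [inv_mul_cancel_left] at h4
    exact h4
  have hv : ∀ x : Ext B, x.v ≠ 0 → a.coeff x = 0 := by
    intro x hx
    obtain ⟨y, hy⟩ := exists_conj_zz x hx
    have h5 := hc x y
    rw [hy, hz] at h5
    exact zmod3_eq_neg h5.symm
  apply MonoidAlgebra.ext
  apply Finsupp.ext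
  intro x
  rw [MonoidAlgebra.coeff_smul, Finsupp.smul_apply, smul_eq_mul]
  by_cases hx : x.v = 0
  · rcases eq_one_or_zz_of_v x hx with rfl | rfl
    · rw [coeff_eps_one]; ring
    · rw [coeff_eps_zz, mul_one]
      have := hz 1
      rw [one_mul] at this
      exact this
  · have hx1 : x ≠ 1 := by
      rintro rfl
      exact hx rfl
    have hx2 : x ≠ Ext.zz := by
      rintro rfl
      exact hx rfl
    rw [hv x hx, coeff_eps_other hx1 hx2, mul_zero]


/-- `a` intertwines the regular action with its twist by `α`. -/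
def Intw (α : MulAut (Ext B)) (a : Alg B) : Prop :=
  a * eps B = a ∧ ∀ x, a * o x = o (α x) * a

theorem Intw.eps_mul {α : MulAut (Ext B)} {a : Alg B} (h : Intw α a) : eps B * a = a := by
  rw [← eps_comm]; exact h.1

section Fin

variable [Fintype V]

/-- Averaging over the group lands in the scalars. -/
theorem avg (s : Alg B) (hs : s * eps B = s) :
    ∑ y : Ext B, o y * s * o y⁻¹ =
      (-((Fintype.card (Ext B) : ZMod 3) * s.coeff 1)) • eps B := by
  obtain ⟨T, hT⟩ : ∃ T : Alg B, T = ∑ y : Ext B, o y * s * o y⁻¹ := ⟨_, rfl⟩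
  rw [← hT]
  have h1 : T * eps B = T := by
    rw [hT, Finset.sum_mul]
    apply Finset.sum_congr rfl
    intro y _
    rw [mul_assoc, eps_comm (o y⁻¹), ← mul_assoc, mul_assoc (o y), hs]
  have h2 : ∀ x, T * o x = o x * T := by
    intro x
    rw [hT, Finset.sum_mul, Finset.mul_sum]
    apply Fintype.sum_equiv (Equiv.mulLeft x⁻¹)
    intro y
    show o y * s * o y⁻¹ * o x = o x * (o (x⁻¹ * y) * s * o (x⁻¹ * y)⁻¹)
    rw [← mul_assoc, ← mul_assoc, o_mul, mul_inv_cancel_left, mul_assoc (o y * s), o_mul,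
      mul_inv_rev, inv_inv]
  have h3 := schur T h1 h2
  have h4 : T.coeff 1 = (Fintype.card (Ext B) : ZMod 3) * s.coeff 1 := by
    rw [hT, MonoidAlgebra.coeff_sum, Finsupp.finsetSum_apply]
    have : ∀ y : Ext B, (o y * s * o y⁻¹).coeff 1 = s.coeff 1 := by
      intro y
      rw [coeff_mul_o, coeff_o_mul, inv_inv, one_mul, inv_mul_cancel]
    simp only [this, Finset.sum_const, Finset.card_univ, nsmul_eq_mul]
  rw [← h4]
  exact h3

/-- The averaged intertwiner. -/
theorem intw_avg (α : MulAut (Ext B)) (t : Alg B) (ht : t * eps B = t) :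
    Intw α (∑ y : Ext B, o (α y) * t * o y⁻¹) := by
  constructor
  · rw [Finset.sum_mul]
    apply Finset.sum_congr rfl
    intro y _
    rw [mul_assoc, eps_comm (o y⁻¹), ← mul_assoc, mul_assoc (o (α y)), ht]
  · intro x
    rw [Finset.sum_mul, Finset.mul_sum]
    apply Fintype.sum_equiv (Equiv.mulLeft x⁻¹)
    intro y
    show o (α y) * t * o y⁻¹ * o x = o (α x) * (o (α (x⁻¹ * y)) * t * o (x⁻¹ * y)⁻¹)
    rw [← mul_assoc, ← mul_assoc, o_mul, ← map_mul, mul_inv_cancel_left,
      mul_assoc (o (α y) * t), o_mul, mul_inv_rev, inv_inv]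

theorem exists_coeff_ne {a : Alg B} (hne : a ≠ 0) : ∃ x, a.coeff x ≠ 0 := by
  by_contra hall
  push Not at hall
  apply hne
  apply MonoidAlgebra.ext
  apply Finsupp.ext
  intro x
  exact hall x

/-- A nonzero intertwiner is invertible in the corner algebra. -/
theorem intw_inv (hcard : ((Fintype.card (Ext B) : ℕ) : ZMod 3) ≠ 0) (α : MulAut (Ext B))
    (a : Alg B) (ha : Intw α a) (hne : a ≠ 0) :
    ∃ b, Intw α⁻¹ b ∧ a * b = eps B ∧ b * a = eps B := by
  obtain ⟨x₀, hx₀⟩ := exists_coeff_ne hne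
  obtain ⟨t, ht0⟩ : ∃ t : Alg B, t = eps B * o x₀⁻¹ := ⟨_, rfl⟩
  have ht : t * eps B = t := by
    rw [ht0, mul_assoc, eps_comm (o x₀⁻¹), ← mul_assoc, eps_sq]
  obtain ⟨b₀, hb0⟩ : ∃ b₀ : Alg B, b₀ = ∑ y : Ext B, o (α⁻¹ y) * t * o y⁻¹ := ⟨_, rfl⟩
  have hb₀ : Intw α⁻¹ b₀ := by rw [hb0]; exact intw_avg α⁻¹ t ht
  have h1 : a * b₀ = ∑ y : Ext B, o y * (a * t) * o y⁻¹ := by
    rw [hb0, Finset.mul_sum]
    apply Finset.sum_congr rfl
    intro y _
    rw [← mul_assoc, ← mul_assoc, ha.2, MulAut.apply_inv_self, mul_assoc (o y)]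
  have hat : a * t = a * o x₀⁻¹ := by rw [ht0, ← mul_assoc, ha.1]
  have h2 : (a * t) * eps B = a * t := by rw [mul_assoc, ht]
  have h3 : (a * t).coeff 1 = a.coeff x₀ := by
    rw [hat, coeff_mul_o, inv_inv, one_mul]
  have h4 := avg (a * t) h2
  rw [← h1, h3] at h4
  obtain ⟨c, hc⟩ : ∃ c : ZMod 3, c = -((Fintype.card (Ext B) : ZMod 3) * a.coeff x₀) := ⟨_, rfl⟩
  rw [← hc] at h4
  have hc0 : c ≠ 0 := by
    rw [hc]
    exact neg_ne_zero.mpr (mul_ne_zero hcard hx₀)
  have hb : Intw α⁻¹ (c⁻¹ • b₀) := by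
    constructor
    · rw [smul_mul_assoc, hb₀.1]
    · intro x
      rw [smul_mul_assoc, hb₀.2, mul_smul_comm]
  have hab : a * (c⁻¹ • b₀) = eps B := by
    rw [mul_smul_comm, h4, inv_smul_smul₀ hc0]
  refine ⟨c⁻¹ • b₀, hb, hab, ?_⟩
  obtain ⟨d, hd⟩ : ∃ d : Alg B, d = (c⁻¹ • b₀) * a := ⟨_, rfl⟩
  rw [← hd]
  have hd1 : d * eps B = d := by rw [hd, mul_assoc, ha.1]
  have hd2 : ∀ x, d * o x = o x * d := by
    intro x
    rw [hd, mul_assoc, ha.2, ← mul_assoc, hb.2, MulAut.inv_apply_self, mul_assoc]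
  have hd3 := schur d hd1 hd2
  have had : a * d = a := by
    rw [hd, ← mul_assoc, hab, ha.eps_mul]
  rw [hd3, mul_smul_comm, ha.1] at had
  by_cases hone : -(d.coeff 1) = 1
  · rw [hd3, hone, one_smul]
  · exfalso
    apply hne
    have h5 : (-(d.coeff 1) - 1) • a = 0 := by
      rw [sub_smul, one_smul, had, sub_self]
    have h6 : -(d.coeff 1) - 1 ≠ 0 := sub_ne_zero.mpr hone
    have h7 := inv_smul_smul₀ h6 a
    rw [h5, smul_zero] at h7
    exact h7.symm

/-- The elements whose twisted conjugation fixes `s`. -/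
def fixSub (α : MulAut (Ext B)) (s : Ext B) : Subgroup (Ext B) where
  carrier := {y | α y * s * y⁻¹ = s}
  mul_mem' := by
    intro y y' hy hy'
    show α (y * y') * s * (y * y')⁻¹ = s
    have hy1 : α y * s * y⁻¹ = s := hy
    have hy2 : α y' * s * y'⁻¹ = s := hy'
    rw [map_mul, mul_inv_rev]
    calc α y * α y' * s * (y'⁻¹ * y⁻¹) = α y * (α y' * s * y'⁻¹) * y⁻¹ := by group
      _ = s := by rw [hy2, hy1]
  one_mem' := by
    show α 1 * s * 1⁻¹ = s
    rw [map_one, inv_one, one_mul, mul_one]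
  inv_mem' := by
    intro y hy
    show α y⁻¹ * s * y⁻¹⁻¹ = s
    have hy1 : α y * s * y⁻¹ = s := hy
    rw [map_inv, inv_inv]
    calc (α y)⁻¹ * s * y = (α y)⁻¹ * (α y * s * y⁻¹) * y := by rw [hy1]
      _ = s := by group

theorem mem_fixSub (α : MulAut (Ext B)) (s y : Ext B) : y ∈ fixSub α s ↔ α y * s * y⁻¹ = s :=
  Iff.rfl

/-- Existence of a nonzero intertwiner, given a suitable base point. -/
theorem exists_intw (hcard : Nat.Coprime (Fintype.card (Ext B)) 3) (α : MulAut (Ext B))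
    (s : Ext B) (hs : ∀ y, Ext.zz * (α y * s * y⁻¹) ≠ s) : ∃ a, Intw α a ∧ a ≠ 0 := by
  classical
  obtain ⟨t, ht0⟩ : ∃ t : Alg B, t = eps B * o s := ⟨_, rfl⟩
  have ht : t * eps B = t := by
    rw [ht0, mul_assoc, eps_comm (o s), ← mul_assoc, eps_sq]
  refine ⟨_, intw_avg α t ht, ?_⟩
  intro h0
  have h1 := congrArg (fun a : Alg B => a.coeff s) h0
  simp only [MonoidAlgebra.coeff_sum, Finsupp.finsetSum_apply] at h1
  have h2 : ∀ y : Ext B, (o (α y) * t * o y⁻¹).coeff s =
      - (if y ∈ fixSub α s then (1 : ZMod 3) else 0) := by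
    intro y
    have e1 : o (α y) * t * o y⁻¹ = eps B * o (α y * s * y⁻¹) := by
      rw [ht0, ← mul_assoc, eps_comm (o (α y)), mul_assoc (eps B), o_mul, mul_assoc, o_mul]
    rw [e1]
    unfold eps
    rw [sub_mul, one_mul, o_mul, MonoidAlgebra.coeff_sub, Finsupp.sub_apply, coeff_o_ne (hs y),
      zero_sub]
    by_cases h : y ∈ fixSub α s
    · rw [if_pos h, (mem_fixSub α s y).mp h, coeff_o_self]
    · rw [if_neg h, coeff_o_ne (fun h' => h ((mem_fixSub α s y).mpr h')), neg_zero]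
  simp only [h2] at h1
  rw [Finset.sum_neg_distrib] at h1
  have h3 : (∑ y : Ext B, if y ∈ fixSub α s then (1 : ZMod 3) else 0) =
      ((Nat.card (fixSub α s) : ℕ) : ZMod 3) := by
    rw [Finset.sum_boole, Nat.card_eq_fintype_card, Fintype.card_subtype]
  have h4 : ((Nat.card (fixSub α s) : ℕ) : ZMod 3) = 0 := by
    rw [← h3]
    have h5 : (-(∑ y : Ext B, if y ∈ fixSub α s then (1 : ZMod 3) else 0)) = 0 := h1
    exact neg_eq_zero.mp h5
  rw [ZMod.natCast_eq_zero_iff] at h4
  have h6 : Nat.card (fixSub α s) ∣ Fintype.card (Ext B) := by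
    have := Subgroup.card_subgroup_dvd_card (fixSub α s)
    rw [Nat.card_eq_fintype_card (α := Ext B)] at this
    exact this
  have h7 : (3 : ℕ) ∣ Nat.gcd (Fintype.card (Ext B)) 3 :=
    Nat.dvd_gcd (h4.trans h6) dvd_rfl
  rw [hcard] at h7
  omega

end Fin

/-- For a coordinate space the required base point exists. -/
theorem exists_base {ι : Type} [Fintype ι] [DecidableEq ι] (B : Coc (ι → ZMod 2))
    (α : MulAut (Ext B)) : ∃ s : Ext B, ∀ y, Ext.zz * (α y * s * y⁻¹) ≠ s := by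
  let W : Submodule (ZMod 2) (ι → ZMod 2) :=
    { carrier := {v | abar α v = v}
      add_mem' := by
        intro u v hu hv
        show abar α (u + v) = u + v
        have hu' : abar α u = u := hu
        have hv' : abar α v = v := hv
        rw [abar_add, hu', hv']
      zero_mem' := abar_zero α
      smul_mem' := by
        intro c v hv
        show abar α (c • v) = c • v
        have hv' : abar α v = v := hv
        rcases Cfsg.Agent.Lib.Helper30.XSModel.Mdl.zmod_two_cases c with h | h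
        · rw [h, zero_smul]; exact abar_zero α
        · rw [h, one_smul]; exact hv' }
  have hW : ∀ u : W, abar α (u : ι → ZMod 2) = u := fun u => u.2
  have hadd : ∀ u v : W, lfun α (((u + v : W)) : ι → ZMod 2) =
      lfun α (u : ι → ZMod 2) + lfun α (v : ι → ZMod 2) := by
    intro u v
    have h1 := aut_c α ((⟨0, (u : ι → ZMod 2)⟩ : Ext B) * ⟨0, (v : ι → ZMod 2)⟩)
    rw [map_mul, Ext.mul_c] at h1
    have e1 : (α (⟨0, (u : ι → ZMod 2)⟩ : Ext B)).v = u := hW u
    have e2 : (α (⟨0, (v : ι → ZMod 2)⟩ : Ext B)).v = v := hW v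
    rw [e1, e2] at h1
    have h2 : lfun α (u : ι → ZMod 2) + lfun α (v : ι → ZMod 2) + B.β u v =
        (0 + 0 + B.β u v) + lfun α ((u : ι → ZMod 2) + v) := h1
    show lfun α ((u : ι → ZMod 2) + v) = _
    linear_combination -h2
  let φ₀ : W →+ ZMod 2 := AddMonoidHom.mk' (fun u => lfun α (u : ι → ZMod 2)) hadd
  let φ : W →ₗ[ZMod 2] ZMod 2 := φ₀.toZModLinearMap 2
  obtain ⟨g, hg⟩ := LinearMap.exists_extend φ
  obtain ⟨w, hw⟩ := exists_repr B g (fun u v => map_add g u v)
  refine ⟨⟨0, w⟩, ?_⟩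
  intro y hy
  have hv : abar α y.v = y.v := by
    have h1 := congrArg Ext.v hy
    simp only [Ext.mul_v, Ext.inv_v, aut_v] at h1
    have h2 : (Ext.zz : Ext B).v = 0 := rfl
    rw [h2, zero_add] at h1
    have h3 : abar α y.v + w + y.v = w := h1
    have e : abar α y.v = (abar α y.v + w + y.v) + (w + y.v) := by
      have t1 := B.two w
      have t2 := B.two y.v
      calc abar α y.v = abar α y.v + (w + w) + (y.v + y.v) := by
            rw [t1, t2, add_zero, add_zero]
        _ = (abar α y.v + w + y.v) + (w + y.v) := by abel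
    rw [e, h3]
    calc w + (w + y.v) = (w + w) + y.v := by abel
      _ = y.v := by rw [B.two, zero_add]
  have hc := congrArg Ext.c hy
  simp only [Ext.mul_c, Ext.mul_v, Ext.inv_c, Ext.inv_v, aut_c, aut_v, hv] at hc
  have z1 : (Ext.zz : Ext B).c = 1 := rfl
  have z2 : (Ext.zz : Ext B).v = 0 := rfl
  rw [z1, z2, B.zero_left, B.add_left] at hc
  have hg2 : g y.v = lfun α y.v := LinearMap.congr_fun hg ⟨y.v, hv⟩
  have hw2 := hw y.v
  have c1 := CharTwo.add_self_eq_zero y.c
  have c2 := CharTwo.add_self_eq_zero (B.β y.v y.v)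
  have c3 := CharTwo.add_self_eq_zero (lfun α y.v)
  have : (1 : ZMod 2) = 0 := by linear_combination hc - c1 - c2 - hw2 - hg2 - c3
  exact one_ne_zero this

theorem one_sub_comm (s : Alg B) : s * (1 - eps B) = (1 - eps B) * s := by
  rw [mul_sub, sub_mul, mul_one, one_mul, eps_comm]

/-- The image of a group element among the units of the algebra. -/
noncomputable def u (x : Ext B) : Alg B := (1 - eps B) + eps B * o x

theorem u_one : u (1 : Ext B) = 1 := by
  unfold u; rw [o_one, mul_one, sub_add_cancel]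

theorem eps_o_mul (x y : Ext B) : (eps B * o x) * (eps B * o y) = eps B * o (x * y) := by
  rw [mul_assoc, ← mul_assoc (o x), eps_comm (o x), mul_assoc (eps B) (o x), o_mul, ← mul_assoc,
    eps_sq]

theorem u_mul (x y : Ext B) : u x * u y = u (x * y) := by
  unfold u
  have h1 : (1 - eps B) * (eps B * o y) = 0 := by rw [← mul_assoc, one_sub_mul_eps, zero_mul]
  have h2 : eps B * o x * (1 - eps B) = 0 := by
    rw [mul_assoc, one_sub_comm (o x), ← mul_assoc, eps_mul_one_sub, zero_mul]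
  rw [add_mul, mul_add, mul_add, one_sub_eps_sq, eps_o_mul, h1, h2, add_zero, zero_add]

/-- `u` as a monoid homomorphism. -/
noncomputable def uHom (B : Coc V) : Ext B →* Alg B where
  toFun := u
  map_one' := u_one
  map_mul' := fun x y => (u_mul x y).symm

/-- `u` as a homomorphism into the units. -/
noncomputable def uU (B : Coc V) : Ext B →* (Alg B)ˣ := (uHom B).toHomUnits

theorem uU_coe (x : Ext B) : ((uU B x : (Alg B)ˣ) : Alg B) = u x :=
  MonoidHom.coe_toHomUnits (uHom B) x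

theorem zmod3_cases (c : ZMod 3) : c = 0 ∨ c = 1 ∨ c = -1 := by
  revert c; decide

theorem u_injective : Function.Injective (u : Ext B → Alg B) := by
  intro x y h
  by_contra hne
  unfold u at h
  have h1 : eps B * o x = eps B * o y := add_left_cancel h
  have h2 : (eps B * o x).coeff x = (eps B * o y).coeff x := by rw [h1]
  unfold eps at h2
  have hzx : Ext.zz * x ≠ x := by
    intro h3
    apply Ext.zz_ne_one (B := B)
    apply mul_right_cancel (b := x)
    rw [one_mul]; exact h3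
  rw [sub_mul, sub_mul, one_mul, one_mul, o_mul, o_mul, MonoidAlgebra.coeff_sub,
    MonoidAlgebra.coeff_sub, Finsupp.sub_apply, Finsupp.sub_apply, coeff_o_self, coeff_o_ne hzx,
    coeff_o_ne (Ne.symm hne)] at h2
  by_cases h3 : Ext.zz * y = x
  · rw [h3, coeff_o_self] at h2
    revert h2; decide
  · rw [coeff_o_ne h3] at h2
    revert h2; decide

theorem uU_injective : Function.Injective (uU B) := by
  intro x y h
  apply u_injective
  have := congrArg (fun r : (Alg B)ˣ => (r : Alg B)) h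
  simp only [uU_coe] at this
  exact this

/-- The group of algebra units normalizing the image of `Ext B`, each paired with the
automorphism it induces. -/
noncomputable def Rgrp (B : Coc V) : Subgroup ((Alg B)ˣ × MulAut (Ext B)) where
  carrier := {p | (p.1 : Alg B) * (1 - eps B) = 1 - eps B ∧
    ∀ x, (p.1 : Alg B) * (eps B * o x) = (eps B * o (p.2 x)) * (p.1 : Alg B)}
  mul_mem' := by
    rintro p p' ⟨h1, h2⟩ ⟨h1', h2'⟩
    refine ⟨?_, ?_⟩
    · show ((p.1 * p'.1 : (Alg B)ˣ) : Alg B) * (1 - eps B) = 1 - eps B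
      rw [Units.val_mul, mul_assoc, h1', h1]
    · intro x
      show ((p.1 * p'.1 : (Alg B)ˣ) : Alg B) * (eps B * o x) =
        (eps B * o (p.2 (p'.2 x))) * ((p.1 * p'.1 : (Alg B)ˣ) : Alg B)
      rw [Units.val_mul, mul_assoc, h2', ← mul_assoc, h2, mul_assoc]
  one_mem' := by
    refine ⟨?_, ?_⟩
    · show ((1 : (Alg B)ˣ) : Alg B) * (1 - eps B) = 1 - eps B
      rw [Units.val_one, one_mul]
    · intro x
      show ((1 : (Alg B)ˣ) : Alg B) * (eps B * o x) = (eps B * o x) * ((1 : (Alg B)ˣ) : Alg B)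
      rw [Units.val_one, one_mul, mul_one]
  inv_mem' := by
    rintro p ⟨h1, h2⟩
    refine ⟨?_, ?_⟩
    · show ((p.1⁻¹ : (Alg B)ˣ) : Alg B) * (1 - eps B) = 1 - eps B
      calc ((p.1⁻¹ : (Alg B)ˣ) : Alg B) * (1 - eps B)
          = ((p.1⁻¹ : (Alg B)ˣ) : Alg B) * ((p.1 : Alg B) * (1 - eps B)) := by rw [h1]
        _ = 1 - eps B := by rw [← mul_assoc, Units.inv_mul, one_mul]
    · intro x
      show ((p.1⁻¹ : (Alg B)ˣ) : Alg B) * (eps B * o x) =
        (eps B * o (p.2⁻¹ x)) * ((p.1⁻¹ : (Alg B)ˣ) : Alg B)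
      have h3 := h2 (p.2⁻¹ x)
      rw [MulAut.apply_inv_self] at h3
      calc ((p.1⁻¹ : (Alg B)ˣ) : Alg B) * (eps B * o x)
          = ((p.1⁻¹ : (Alg B)ˣ) : Alg B) * ((eps B * o x) * (p.1 : Alg B)) *
              ((p.1⁻¹ : (Alg B)ˣ) : Alg B) := by
            rw [mul_assoc, mul_assoc, Units.mul_inv, mul_one]
        _ = (eps B * o (p.2⁻¹ x)) * ((p.1⁻¹ : (Alg B)ˣ) : Alg B) := by
            rw [← h3, ← mul_assoc, Units.inv_mul, one_mul]

theorem mem_Rgrp (p : (Alg B)ˣ × MulAut (Ext B)) : p ∈ Rgrp B ↔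
    ((p.1 : Alg B) * (1 - eps B) = 1 - eps B ∧
      ∀ x, (p.1 : Alg B) * (eps B * o x) = (eps B * o (p.2 x)) * (p.1 : Alg B)) := Iff.rfl

theorem u_mem (x : Ext B) : (uU B x, MulAut.conj x) ∈ Rgrp B := by
  refine ⟨?_, ?_⟩
  · show ((uU B x : (Alg B)ˣ) : Alg B) * (1 - eps B) = 1 - eps B
    rw [uU_coe]
    unfold u
    rw [add_mul, one_sub_eps_sq, mul_assoc, one_sub_comm (o x), ← mul_assoc, eps_mul_one_sub,
      zero_mul, add_zero]
  · intro y
    show ((uU B x : (Alg B)ˣ) : Alg B) * (eps B * o y) =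
      (eps B * o (x * y * x⁻¹)) * ((uU B x : (Alg B)ˣ) : Alg B)
    rw [uU_coe]
    unfold u
    have h1 : (1 - eps B) * (eps B * o y) = 0 := by rw [← mul_assoc, one_sub_mul_eps, zero_mul]
    have h2 : eps B * o (x * y * x⁻¹) * (1 - eps B) = 0 := by
      rw [mul_assoc, one_sub_comm (o (x * y * x⁻¹)), ← mul_assoc, eps_mul_one_sub, zero_mul]
    rw [add_mul, mul_add, eps_o_mul, eps_o_mul, h1, h2, zero_add, zero_add,
      inv_mul_cancel_right]

theorem conj_u (p : (Alg B)ˣ × MulAut (Ext B)) (hp : p ∈ Rgrp B) (x : Ext B) :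
    (p.1 : Alg B) * u x = u (p.2 x) * (p.1 : Alg B) := by
  obtain ⟨h1, h2⟩ := hp
  unfold u
  rw [mul_add, add_mul, h2 x, h1, ← one_sub_comm, h1]

/-- A unit from an invertible intertwiner. -/
theorem exists_unit_of_intw (α : MulAut (Ext B)) (a b : Alg B) (ha : Intw α a)
    (hb : Intw α⁻¹ b) (hab : a * b = eps B) (hba : b * a = eps B) :
    ∃ r : (Alg B)ˣ, (r, α) ∈ Rgrp B := by
  have e1 : a * (1 - eps B) = 0 := by rw [mul_sub, mul_one, ha.1, sub_self]
  have e2 : b * (1 - eps B) = 0 := by rw [mul_sub, mul_one, hb.1, sub_self]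
  have e3 : (1 - eps B) * a = 0 := by rw [← one_sub_comm, e1]
  have e4 : (1 - eps B) * b = 0 := by rw [← one_sub_comm, e2]
  have h1 : (a + (1 - eps B)) * (b + (1 - eps B)) = 1 := by
    rw [add_mul, mul_add, mul_add, hab, e1, e4, one_sub_eps_sq]; abel
  have h2 : (b + (1 - eps B)) * (a + (1 - eps B)) = 1 := by
    rw [add_mul, mul_add, mul_add, hba, e2, e3, one_sub_eps_sq]; abel
  refine ⟨⟨a + (1 - eps B), b + (1 - eps B), h1, h2⟩, ?_, ?_⟩
  · show (a + (1 - eps B)) * (1 - eps B) = 1 - eps B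
    rw [add_mul, e1, one_sub_eps_sq, zero_add]
  · intro x
    show (a + (1 - eps B)) * (eps B * o x) = (eps B * o (α x)) * (a + (1 - eps B))
    have h3 : (1 - eps B) * (eps B * o x) = 0 := by rw [← mul_assoc, one_sub_mul_eps, zero_mul]
    have h4 : eps B * o (α x) * (1 - eps B) = 0 := by
      rw [mul_assoc, one_sub_comm (o (α x)), ← mul_assoc, eps_mul_one_sub, zero_mul]
    have h5 : a * (eps B * o x) = a * o x := by rw [← mul_assoc, ha.1]
    have h6 : eps B * o (α x) * a = a * o x := by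
      rw [mul_assoc, ← ha.2, ← mul_assoc, ha.eps_mul]
    rw [add_mul, mul_add, h3, h4, h5, h6]

/-- Every automorphism of `Ext B` is induced by a unit of the algebra. -/
theorem exists_unit {ι : Type} [Fintype ι] [DecidableEq ι] (B : Coc (ι → ZMod 2))
    (α : MulAut (Ext B)) : ∃ r : (Alg B)ˣ, (r, α) ∈ Rgrp B := by
  have hcard : Nat.Coprime (Fintype.card (Ext B)) 3 := by
    rw [← Nat.card_eq_fintype_card, Ext.card, Nat.card_eq_fintype_card, Fintype.card_fun,
      ZMod.card]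
    exact Nat.Coprime.mul_left (by decide) (Nat.Coprime.pow_left _ (by decide))
  obtain ⟨s, hs⟩ := exists_base B α
  obtain ⟨a, ha, hne⟩ := exists_intw hcard α s hs
  have hcard' : ((Fintype.card (Ext B) : ℕ) : ZMod 3) ≠ 0 := by
    rw [Ne, ZMod.natCast_eq_zero_iff]
    intro h
    have h7 : (3 : ℕ) ∣ Nat.gcd (Fintype.card (Ext B)) 3 := Nat.dvd_gcd h dvd_rfl
    rw [hcard] at h7
    omega
  obtain ⟨b, hb, hab, hba⟩ := intw_inv hcard' α a ha hne
  exact exists_unit_of_intw α a b ha hb hab hba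

/-- A unit inducing an inner automorphism is, up to the central involution, the image of the
conjugating element. -/
theorem eq_u_of_mem_conj (r : (Alg B)ˣ) (x₀ : Ext B) (h : (r, MulAut.conj x₀) ∈ Rgrp B) :
    r = uU B x₀ ∨ r = uU B (Ext.zz * x₀) := by
  obtain ⟨h1, h2⟩ := h
  have h1' : (r : Alg B) * (1 - eps B) = 1 - eps B := h1
  have h2' : ∀ x, (r : Alg B) * (eps B * o x) = (eps B * o (x₀ * x * x₀⁻¹)) * (r : Alg B) := h2
  obtain ⟨a, ha⟩ : ∃ a : Alg B, a = o x₀⁻¹ * ((r : Alg B) * eps B) := ⟨_, rfl⟩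
  have ha1 : a * eps B = a := by rw [ha, mul_assoc, mul_assoc, eps_sq]
  have ha2 : ∀ x, a * o x = o x * a := by
    intro x
    have e : x₀⁻¹ * (x₀ * x * x₀⁻¹) = x * x₀⁻¹ := by group
    calc a * o x = o x₀⁻¹ * ((r : Alg B) * (eps B * o x)) := by rw [ha, mul_assoc, mul_assoc]
      _ = o x₀⁻¹ * ((eps B * o (x₀ * x * x₀⁻¹)) * (r : Alg B)) := by rw [h2' x]
      _ = eps B * (o x₀⁻¹ * o (x₀ * x * x₀⁻¹)) * (r : Alg B) := by
          rw [← mul_assoc, ← mul_assoc, eps_comm (o x₀⁻¹), mul_assoc (eps B)]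
      _ = eps B * o (x * x₀⁻¹) * (r : Alg B) := by rw [o_mul, e]
      _ = o x * (o x₀⁻¹ * (eps B * (r : Alg B))) := by
          rw [← mul_assoc (o x), o_mul, ← mul_assoc, eps_comm (o (x * x₀⁻¹))]
      _ = o x * a := by rw [ha, eps_comm (r : Alg B)]
  have h3 := schur a ha1 ha2
  obtain ⟨c, hc⟩ : ∃ c : ZMod 3, c = -(a.coeff 1) := ⟨_, rfl⟩
  rw [← hc] at h3
  have h4 : (r : Alg B) * eps B = c • (eps B * o x₀) := by
    have h5 : o x₀ * a = (r : Alg B) * eps B := by
      rw [ha, ← mul_assoc, o_mul, mul_inv_cancel, o_one, one_mul]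
    rw [← h5, h3, mul_smul_comm, eps_comm]
  have h6 : (r : Alg B) = c • (eps B * o x₀) + (1 - eps B) := by
    rw [← h4, ← h1', ← mul_add, add_sub_cancel, mul_one]
  rcases zmod3_cases c with hc0 | hc1 | hc2
  · exfalso
    rw [hc0, zero_smul] at h4
    apply eps_ne_zero (B := B)
    calc eps B = ((r⁻¹ : (Alg B)ˣ) : Alg B) * ((r : Alg B) * eps B) := by
          rw [← mul_assoc, Units.inv_mul, one_mul]
      _ = 0 := by rw [h4, mul_zero]
  · left
    apply Units.ext
    rw [h6, hc1, one_smul, uU_coe]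
    unfold u
    rw [add_comm]
  · right
    apply Units.ext
    rw [h6, hc2, uU_coe]
    unfold u
    rw [← o_mul, ← mul_assoc, eps_mul_o_zz, neg_smul, one_smul, neg_mul, add_comm]

theorem mulAut_conj_conj {G : Type*} [Group G] (α : MulAut G) (x : G) :
    α * MulAut.conj x * α⁻¹ = MulAut.conj (α x) := by
  apply MulEquiv.ext
  intro y
  show α (x * α⁻¹ y * x⁻¹) = α x * y * (α x)⁻¹
  rw [map_mul, map_mul, MulAut.apply_inv_self, map_inv]

end Cfsg.Agent.Lib.Helper51.XSAlg
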