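import Mathlib
import Cfsg.Agent.Lib.Helper51.XSAlg

set_option autoImplicit false
set_option linter.unusedSectionVars false
set_option linter.unusedVariables false

namespace Cfsg.Agent.Lib.Helper51.XSHol

open Cfsg.Agent.Lib.Helper30.XSExt Cfsg.Agent.Lib.Helper30.XSAut Cfsg.Agent.Lib.Helper30.XSOut
  Cfsg.Agent.Lib.Helper51.XSAlg

universe w

/-- Being extraspecial is invariant under isomorphism (same argument as in the library of
helper90, repeated here to keep the import closure small). -/
theorem extraspecial_of_mulEquiv {P P' : Type*} [Group P] [Group P'] {p : ℕ} (e : P ≃* P')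
    (h : Cfsg.IsExtraspecial p P) : Cfsg.IsExtraspecial p P' := by
  obtain ⟨⟨hp, hfr, hcomm⟩, hcard⟩ := h
  have hcen : ∀ x : P', x ∈ Subgroup.center P' ↔ e.symm x ∈ Subgroup.center P := by
    intro x
    rw [Subgroup.mem_center_iff, Subgroup.mem_center_iff]
    constructor
    · intro hx g
      have := congrArg e.symm (hx (e g))
      simpa using this
    · intro hx g
      have := congrArg e (hx (e.symm g))
      simpa using this
  have hfrat : ∀ x : P', x ∈ frattini P' ↔ e.symm x ∈ frattini P := by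
    intro x
    constructor
    · intro hx
      exact frattini_le_comap_frattini_of_surjective (φ := e.symm.toMonoidHom) e.symm.surjective hx
    · intro hx
      have := frattini_le_comap_frattini_of_surjective (φ := e.toMonoidHom) e.surjective hx
      simpa using this
  have hmap : (Subgroup.center P).map e.toMonoidHom = Subgroup.center P' := by
    ext x
    rw [hcen]
    constructor
    · rintro ⟨y, hy, rfl⟩
      simpa using hy
    · intro hx
      exact ⟨e.symm x, hx, by simp⟩
  refine ⟨⟨hp.of_equiv e, ?_, ?_⟩, ?_⟩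
  · ext x
    rw [hfrat, hcen, hfr]
  · have h1 : commutator P' = (commutator P).map e.toMonoidHom := by
      rw [commutator_def, commutator_def, Subgroup.map_commutator,
        Subgroup.map_top_of_surjective _ e.surjective]
    rw [h1, hcomm, hmap]
  · rw [← hmap, Subgroup.card_map_of_injective e.injective]
    exact hcard

variable {ι : Type} [Fintype ι] [DecidableEq ι] (B : Coc (ι → ZMod 2))
variable {K : Type w} [Group K] (act : K → (ι → ZMod 2) → (ι → ZMod 2))

/-- A faithful action of `K` on the coordinate space by isometries of the squaring form. -/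
structure ActHyp : Prop where
  one : ∀ v, act 1 v = v
  mul : ∀ k k' v, act (k * k') v = act k (act k' v)
  add : ∀ k u v, act k (u + v) = act k u + act k v
  iso : ∀ k v, B.β (act k v) (act k v) = B.β v v
  inj : ∀ k, (∀ v, act k v = v) → k = 1

variable {B act}

theorem act_unique (H : ActHyp B act) {k k' : K} (h : ∀ v, act k v = act k' v) : k = k' := by
  have h1 : k'⁻¹ * k = 1 :=
    H.inj _ (fun v => by rw [H.mul, h, ← H.mul, inv_mul_cancel, H.one])
  exact (inv_mul_eq_one.mp h1).symm

/-- The extension group: units of the algebra normalizing the image of `Ext B` and inducing an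
element of `K`. -/
noncomputable def Rsub (H : ActHyp B act) : Subgroup ((Alg B)ˣ × MulAut (Ext B)) where
  carrier := {p | p ∈ Rgrp B ∧ ∃ k : K, ∀ v, abar p.2 v = act k v}
  mul_mem' := by
    rintro p p' ⟨h1, k, hk⟩ ⟨h1', k', hk'⟩
    refine ⟨(Rgrp B).mul_mem h1 h1', k * k', fun v => ?_⟩
    show abar (p.2 * p'.2) v = act (k * k') v
    rw [abar_mul, hk', hk, H.mul]
  one_mem' := ⟨(Rgrp B).one_mem, 1, fun v => by
    show abar (1 : MulAut (Ext B)) v = act 1 v
    rw [abar_one, H.one]⟩
  inv_mem' := by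
    rintro p ⟨h1, k, hk⟩
    refine ⟨(Rgrp B).inv_mem h1, k⁻¹, fun v => ?_⟩
    show abar p.2⁻¹ v = act k⁻¹ v
    have h2 : abar p.2 (act k⁻¹ v) = v := by rw [hk, ← H.mul, mul_inv_cancel, H.one]
    calc abar p.2⁻¹ v = abar p.2⁻¹ (abar p.2 (act k⁻¹ v)) := by rw [h2]
      _ = act k⁻¹ v := abar_inv_cancel p.2 _

theorem mem_Rsub (H : ActHyp B act) (p : (Alg B)ˣ × MulAut (Ext B)) :
    p ∈ Rsub H ↔ (p ∈ Rgrp B ∧ ∃ k : K, ∀ v, abar p.2 v = act k v) := Iff.rfl

/-- The element of `K` induced by an element of the extension group. -/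
noncomputable def piFun (H : ActHyp B act) (p : Rsub H) : K := Classical.choose p.2.2

theorem piFun_spec (H : ActHyp B act) (p : Rsub H) (v : ι → ZMod 2) :
    abar (p : (Alg B)ˣ × MulAut (Ext B)).2 v = act (piFun H p) v :=
  Classical.choose_spec p.2.2 v

/-- The projection onto `K`. -/
noncomputable def piHom (H : ActHyp B act) : Rsub H →* K :=
  MonoidHom.mk' (piFun H) (by
    intro p p'
    apply act_unique H
    intro v
    rw [H.mul, ← piFun_spec H (p * p') v, ← piFun_spec H p' v, ← piFun_spec H p _]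
    exact abar_mul _ _ _)

theorem piHom_apply (H : ActHyp B act) (p : Rsub H) : piHom H p = piFun H p := rfl

theorem piHom_surj (H : ActHyp B act) : Function.Surjective (piHom H) := by
  intro k
  have hl : ∀ v, act k⁻¹ (act k v) = v := fun v => by rw [← H.mul, inv_mul_cancel, H.one]
  have hr : ∀ v, act k (act k⁻¹ v) = v := fun v => by rw [← H.mul, mul_inv_cancel, H.one]
  obtain ⟨α, hα⟩ : ∃ α : MulAut (Ext B), ∀ v, abar α v = act k v :=
    ⟨liftAut B (act k) (act k⁻¹) (H.add k) hl hr (H.iso k),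
      fun v => abar_liftAut B (act k) (act k⁻¹) (H.add k) hl hr (H.iso k) v⟩
  obtain ⟨r, hr'⟩ := exists_unit B α
  refine ⟨⟨(r, α), hr', k, hα⟩, ?_⟩
  apply act_unique H
  intro v
  rw [piHom_apply, ← piFun_spec H _ v]
  exact hα v

/-- The embedding of `Ext B`. -/
noncomputable def jHom (H : ActHyp B act) : Ext B →* Rsub H where
  toFun x := ⟨(uU B x, MulAut.conj x), u_mem x, 1, fun v => by rw [abar_conj, H.one]⟩
  map_one' := by
    apply Subtype.ext
    show (uU B 1, MulAut.conj (1 : Ext B)) = 1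
    rw [map_one, map_one]
    rfl
  map_mul' x y := by
    apply Subtype.ext
    show (uU B (x * y), MulAut.conj (x * y)) = (uU B x, MulAut.conj x) * (uU B y, MulAut.conj y)
    rw [map_mul, map_mul]
    rfl

theorem jHom_coe (H : ActHyp B act) (x : Ext B) :
    ((jHom H x : Rsub H) : (Alg B)ˣ × MulAut (Ext B)) = (uU B x, MulAut.conj x) := rfl

theorem jHom_injective (H : ActHyp B act) : Function.Injective (jHom H) := by
  intro x y h
  apply uU_injective
  have h1 := congrArg (fun p : Rsub H => (p : (Alg B)ˣ × MulAut (Ext B)).1) h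
  exact h1

theorem conj_zz_mul (x : Ext B) : MulAut.conj (Ext.zz * x) = MulAut.conj x := by
  apply MulEquiv.ext
  intro y
  rw [MulAut.conj_apply, MulAut.conj_apply, mul_inv_rev, zz_inv]
  calc Ext.zz * x * y * (x⁻¹ * Ext.zz) = Ext.zz * (x * y * x⁻¹) * Ext.zz := by group
    _ = x * y * x⁻¹ := by rw [Ext.zz_mul, mul_assoc, Ext.zz_sq, mul_one]

theorem jHom_range (H : ActHyp B act) : (jHom H).range = (piHom H).ker := by
  ext p
  rw [MonoidHom.mem_ker]
  constructor
  · rintro ⟨x, rfl⟩
    apply act_unique H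
    intro v
    rw [piHom_apply, ← piFun_spec H (jHom H x) v, jHom_coe, H.one]
    exact abar_conj x v
  · intro hp
    have hid : ∀ v, abar (p : (Alg B)ˣ × MulAut (Ext B)).2 v = v := by
      intro v
      rw [piFun_spec, ← piHom_apply, hp, H.one]
    obtain ⟨w, hw⟩ := exists_repr B (lfun (p : (Alg B)ˣ × MulAut (Ext B)).2)
      (lfun_add _ hid)
    have hconj := eq_conj_of _ hid w hw
    have hmem : ((p : (Alg B)ˣ × MulAut (Ext B)).1, MulAut.conj (⟨0, w⟩ : Ext B)) ∈ Rgrp B := by
      rw [← hconj]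
      exact p.2.1
    rcases eq_u_of_mem_conj _ _ hmem with h1 | h1
    · refine ⟨⟨0, w⟩, ?_⟩
      apply Subtype.ext
      rw [jHom_coe]
      exact Prod.ext h1.symm hconj.symm
    · refine ⟨Ext.zz * ⟨0, w⟩, ?_⟩
      apply Subtype.ext
      rw [jHom_coe, conj_zz_mul]
      exact Prod.ext h1.symm hconj.symm

theorem finite_alg : Finite (Alg B) := by
  have : Finite (Ext B →₀ ZMod 3) := Finite.of_equiv _ Finsupp.equivFunOnFinite.symm
  exact Finite.of_equiv _ MonoidAlgebra.coeffEquiv.symm

/-- Conjugation in the extension group acts on the image of `Ext B` through the induced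
automorphism. -/
theorem conj_jHom (H : ActHyp B act) (r : Rsub H) (x : Ext B) :
    r * jHom H x * r⁻¹ = jHom H ((r : (Alg B)ˣ × MulAut (Ext B)).2 x) := by
  apply Subtype.ext
  show (r : (Alg B)ˣ × MulAut (Ext B)) * (uU B x, MulAut.conj x) *
    (r : (Alg B)ˣ × MulAut (Ext B))⁻¹ = (uU B _, MulAut.conj _)
  apply Prod.ext
  · show (r : (Alg B)ˣ × MulAut (Ext B)).1 * uU B x * ((r : (Alg B)ˣ × MulAut (Ext B)).1)⁻¹ = _
    rw [mul_inv_eq_iff_eq_mul]
    apply Units.ext
    rw [Units.val_mul, Units.val_mul, uU_coe, uU_coe]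
    exact conj_u _ r.2.1 x
  · show (r : (Alg B)ˣ × MulAut (Ext B)).2 * MulAut.conj x *
      ((r : (Alg B)ˣ × MulAut (Ext B)).2)⁻¹ = _
    exact mulAut_conj_conj _ x

/-- The extension of `Ext B` by `K`. -/
theorem main (H : ActHyp B act) :
    ∃ (R : Type) (_ : Group R) (_ : Finite R) (Q : Subgroup R) (hN : Q.Normal)
      (e : R ⧸ Q ≃* K) (ψ : ↥Q ≃* Ext B),
      ∀ (r : R) (a : ↥Q), (ψ ⟨r * a * r⁻¹, hN.conj_mem (a : R) a.2 r⟩).v =
        act (e (r : R ⧸ Q)) (ψ a).v := by
  have hfin : Finite (Alg B) := finite_alg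
  have hN : ((piHom H).ker).Normal := MonoidHom.normal_ker _
  obtain ⟨ψ', hψ'⟩ : ∃ ψ' : Ext B ≃* ↥((piHom H).ker), ∀ x, ((ψ' x : (piHom H).ker) : Rsub H) =
      jHom H x :=
    ⟨(MonoidHom.ofInjective (jHom_injective H)).trans (MulEquiv.subgroupCongr (jHom_range H)),
      fun x => rfl⟩
  refine ⟨↥(Rsub H), inferInstance, inferInstance, (piHom H).ker, hN,
    QuotientGroup.quotientKerEquivOfSurjective (piHom H) (piHom_surj H), ψ'.symm, ?_⟩
  intro r a
  obtain ⟨x, hx⟩ : ∃ x, ψ' x = a := ψ'.surjective a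
  have h1 : (⟨r * a * r⁻¹, hN.conj_mem (a : Rsub H) a.2 r⟩ : (piHom H).ker) =
      ψ' ((r : (Alg B)ˣ × MulAut (Ext B)).2 x) := by
    apply Subtype.ext
    rw [hψ']
    show r * (a : Rsub H) * r⁻¹ = _
    rw [← hx, hψ', conj_jHom]
  rw [h1, MulEquiv.symm_apply_apply, ← hx, MulEquiv.symm_apply_apply, aut_v]
  show abar (r : (Alg B)ˣ × MulAut (Ext B)).2 x.v = act (piHom H r) x.v
  rw [piHom_apply, piFun_spec]

end Cfsg.Agent.Lib.Helper51.XSHol
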